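import Cfsg.Agent.INV.O7.Defs
import Cfsg.Agent.TECH.ExtTransfer
import Cfsg.Agent.INV.IndexTwo
import Mathlib.Data.Nat.Count

/-! Elementary abelian subgroups of the model; weak closure of `FF φ` and its consequences. -/

set_option autoImplicit false

namespace CL.O7
open Subgroup CL.Fus

/-- counting that the kernel evaluates fast -/
def cntN (n : ℕ) (p : ℕ → Bool) : ℕ := Nat.rec 0 (fun i r => cond (p i) (Nat.succ r) r) n

theorem cntN_eq (n : ℕ) (p : ℕ → Bool) : cntN n p = Nat.count (fun i => p i = true) n := by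
  induction n with
  | zero => rfl
  | succ n ih =>
    change cond (p n) (cntN n p).succ (cntN n p) = _
    rw [Nat.count_succ, ← ih]
    cases p n <;> simp

theorem card_fin {n : ℕ} (r : Fin n → Prop) (p : ℕ → Bool) (h : ∀ i, r i ↔ p i = true) :
    Nat.card {i // r i} = cntN n p := by
  rw [cntN_eq, Nat.count_eq_card_fintype, ← @Nat.card_eq_fintype_card _ (_)]
  exact Nat.card_congr ⟨fun x => ⟨x.1, x.1.2, (h _).1 x.2⟩, fun x => ⟨⟨x.1, x.2.1⟩, (h _).2 x.2.2⟩,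
    fun _ => rfl, fun _ => rfl⟩

/-- the number of vectors with a decidable property -/
def cntV (p : V → Prop) [DecidablePred p] : ℕ := cntN 64 fun i => decide (p (vv i))

theorem card_V (p : V → Prop) [DecidablePred p] : Nat.card {v // p v} = cntV p :=
  card_fin (n := 64) p _ fun i : V => by rw [decide_eq_true_eq, vv_val]

theorem card_le_cntV {W : Subgroup V} (p : V → Prop) [DecidablePred p] (h : ∀ v ∈ W, p v) :
    Nat.card W ≤ cntV p :=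
  card_V p ▸ Nat.card_le_card_of_injective (fun x : W => (⟨x, h x x.2⟩ : {v // p v}))
    fun _ _ e => Subtype.ext (congrArg (fun x : {v // p v} => x.1) e)

theorem comm_of_sq {H : Type*} [Group H] {X : Subgroup H} (hX : ∀ x ∈ X, x * x = 1) {a b : H}
    (ha : a ∈ X) (hb : b ∈ X) : a * b = b * a := by
  have h := hX _ (mul_mem ha hb)
  calc a * b = a * (a * b * (a * b)) * b := by rw [h, mul_one]
    _ = (a * a) * b * a * (b * b) := by simp only [mul_assoc]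
    _ = b * a := by rw [hX a ha, hX b hb, one_mul, mul_one]

theorem card_split (Y : Subgroup M) : Nat.card Y = Nat.card (Y.map pr) * Nat.card (Y.comap inl) := by
  rw [← card_map_of_injective (K := Y.comap inl) inl_inj, map_comap_eq, ← (pr.domRestrict Y).ker.card_mul_index,
    index_ker, MonoidHom.domRestrict_range, mul_comm, MonoidHom.ker_domRestrict,
    ← card_map_of_injective Y.subtype_injective, subgroupOf_map_subtype]
  rw [show pr.ker = inl.range from Subgroup.ext fun m => mem_range_inl.symm]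

theorem pg (Y : Subgroup M) : IsPGroup 2 Y := (IsPGroup.of_card M.card).to_subgroup Y

theorem card_T {Y : Subgroup TT} (p : TT → Prop) [DecidablePred p] (h : ∀ t, t ∈ Y ↔ p t) :
    Nat.card Y = cntN 8 fun i => decide (p (tt i)) :=
  card_fin (n := 8) (· ∈ Y) _ fun i : TT => by rw [decide_eq_true_eq, tt_val]; exact h i

/-- the elementary abelian subgroups of `TT` -/
theorem eaT {Y : Subgroup TT} (h : ∀ x ∈ Y, x * x = 1) : (∀ t ∈ Y, t = 1) ∨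
    (∃ d, d ≠ 1 ∧ d * d = 1 ∧ Nat.card Y = 2 ∧ ∀ t, t ∈ Y ↔ t = 1 ∨ t = d) ∨
    (Nat.card Y = 4 ∧ ((∀ t, t ∈ Y ↔ t.n < 4) ∨ ∀ t, t ∈ Y ↔ t.n &&& 2 = 0)) := by
  by_cases h1 : ∀ t ∈ Y, t = 1
  · exact .inl h1
  push Not at h1
  obtain ⟨d, hd, d1⟩ := h1
  by_cases h2 : ∀ t ∈ Y, t = 1 ∨ t = d
  · have e : ∀ t, t ∈ Y ↔ t = 1 ∨ t = d := fun t => ⟨h2 t, by rintro (rfl | rfl); exacts [one_mem _, hd]⟩
    refine .inr (.inl ⟨d, d1, h d hd, (card_T _ e).trans ?_, e⟩)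
    revert d1
    exact (by decide +kernel : ∀ d : TT, d ≠ 1 → (cntN 8 fun i => decide (tt i = 1 ∨ tt i = d)) = 2) d
  push Not at h2
  obtain ⟨s, hs, s1, sd⟩ := h2
  have key : ∀ d s : TT, d ≠ 1 → s ≠ 1 → s ≠ d → d * d = 1 → s * s = 1 → d * s = s * d →
      (∀ t, (t * t = 1 ∧ t * d = d * t ∧ t * s = s * t → t.n < 4) ∧
        (t.n < 4 → t = 1 ∨ t = d ∨ t = s ∨ t = d * s)) ∨
      ∀ t, (t * t = 1 ∧ t * d = d * t ∧ t * s = s * t → t.n &&& 2 = 0) ∧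
        (t.n &&& 2 = 0 → t = 1 ∨ t = d ∨ t = s ∨ t = d * s) := by decide +kernel
  have a1 : ∀ t ∈ Y, t * t = 1 ∧ t * d = d * t ∧ t * s = s * t := fun t ht =>
    ⟨h t ht, comm_of_sq h ht hd, comm_of_sq h ht hs⟩
  have a2 : ∀ t, t = 1 ∨ t = d ∨ t = s ∨ t = d * s → t ∈ Y := by
    rintro t (rfl | rfl | rfl | rfl)
    exacts [one_mem _, hd, hs, mul_mem hd hs]
  rcases key d s d1 s1 sd (h d hd) (h s hs) (comm_of_sq h hd hs) with k | k
  · have e : ∀ t, t ∈ Y ↔ t.n < 4 := fun t => ⟨fun ht => (k t).1 (a1 t ht), fun ht => a2 t ((k t).2 ht)⟩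
    exact .inr (.inr ⟨(card_T _ e).trans (by decide +kernel), .inl e⟩)
  · have e : ∀ t, t ∈ Y ↔ t.n &&& 2 = 0 := fun t => ⟨fun ht => (k t).1 (a1 t ht), fun ht => a2 t ((k t).2 ht)⟩
    exact .inr (.inr ⟨(card_T _ e).trans (by decide +kernel), .inr e⟩)

theorem fix_of {Y : Subgroup M} (hY : ∀ y ∈ Y, y * y = 1) {t : TT} (ht : t ∈ Y.map pr) {v : V}
    (hv : v ∈ Y.comap inl) : av t v = v := by
  obtain ⟨y, hy, rfl⟩ := ht
  exact (comm_inl_iff y v).1 (comm_of_sq hY hy hv)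

/-- the elementary abelian subgroups of `M` outside `V`; `Y.comap inl` is fixed by `Y.map pr` (`fix_of`) -/
theorem ea {Y : Subgroup M} (hY : ∀ y ∈ Y, y * y = 1) : Y ≤ inl.range ∨
    (∃ d, d ≠ 1 ∧ d * d = 1 ∧ (∀ t, t ∈ Y.map pr ↔ t = 1 ∨ t = d) ∧
      Nat.card Y = 2 * Nat.card (Y.comap inl) ∧ Nat.card (Y.comap inl) ≤ 16) ∨
    (Nat.card Y = 4 * Nat.card (Y.comap inl) ∧ Nat.card (Y.comap inl) ≤ 8 ∧
      (Y ≤ E0 ∨ ∀ t, t ∈ Y.map pr ↔ t.n &&& 2 = 0)) := by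
  rcases eaT (Y := Y.map pr) (by rintro _ ⟨y, hy, rfl⟩; rw [← map_mul, hY y hy, map_one]) with
    h | ⟨d, d1, d2, hc, h⟩ | ⟨hc, h | h⟩
  · exact .inl fun y hy => mem_range_inl.2 (h _ ⟨y, hy, rfl⟩)
  · refine .inr (.inl ⟨d, d1, d2, h, hc ▸ card_split Y, (card_le_cntV (fun v => av d v = v) fun v hv =>
      fix_of hY ((h d).2 (.inr rfl)) hv).trans ?_⟩)
    revert d1
    exact (by decide +kernel : ∀ d : TT, d ≠ 1 → cntV (fun v => av d v = v) ≤ 16) d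
  · refine .inr (.inr ⟨hc ▸ card_split Y, (card_le_cntV (fun v => av (tt 1) v = v ∧ av (tt 2) v = v) fun v hv =>
      ⟨fix_of hY ((h _).2 (by decide)) hv, fix_of hY ((h _).2 (by decide)) hv⟩).trans (by decide +kernel),
      .inl fun y hy => ?_⟩)
    obtain ⟨a, ha, a1⟩ := (h (tt 1)).2 (by decide)
    obtain ⟨c, hc, c1⟩ := (h (tt 2)).2 (by decide)
    have k : ∀ u w : V, (⟨u, tt 1⟩ * ⟨u, tt 1⟩ : M) = 1 → (⟨w, tt 2⟩ * ⟨w, tt 2⟩ : M) = 1 →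
        (⟨u, tt 1⟩ * ⟨w, tt 2⟩ : M) = ⟨w, tt 2⟩ * ⟨u, tt 1⟩ → u ∈ Z0 ∧ w ∈ Z0 := by decide +kernel
    have k2 : ∀ u ∈ Z0, ∀ w ∈ Z0, ∀ y : M, y.t.n < 4 → y * ⟨u, tt 1⟩ = ⟨u, tt 1⟩ * y →
        y * ⟨w, tt 2⟩ = ⟨w, tt 2⟩ * y → y ∈ E0 := by decide +kernel
    have ea : a = ⟨a.v, tt 1⟩ := M.ext rfl a1
    have ec : c = ⟨c.v, tt 2⟩ := M.ext rfl c1
    obtain ⟨k3, k4⟩ := k a.v c.v (ea ▸ hY a ha) (ec ▸ hY c hc) (ea ▸ ec ▸ comm_of_sq hY ha hc)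
    exact k2 _ k3 _ k4 y ((h _).1 ⟨y, hy, rfl⟩) (ea ▸ comm_of_sq hY hy ha) (ec ▸ comm_of_sq hY hy hc)
  · exact .inr (.inr ⟨hc ▸ card_split Y, (card_le_cntV (fun v => av (tt 1) v = v ∧ av (tt 4) v = v) fun v hv =>
      ⟨fix_of hY ((h _).2 (by decide)) hv, fix_of hY ((h _).2 (by decide)) hv⟩).trans (by decide +kernel), .inr h⟩)

theorem card_inl : Nat.card inl.range = 64 := by
  rw [MonoidHom.range_eq_map, card_map_of_injective inl_inj, card_top, V.card]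

theorem ea6 {Y : Subgroup M} (hY : ∀ y ∈ Y, y * y = 1) (hc : Nat.card Y = 64) : Y = inl.range := by
  rcases ea hY with h | ⟨d, -, -, -, h1, h2⟩ | ⟨h1, h2, -⟩
  · exact eq_of_le_of_card_ge h (by rw [hc, card_inl])
  all_goals omega

variable {G : Type*} [Group G] [Finite G] {φ : M →* G}

omit [Finite G] in
theorem Fr.card_comap (h : Fr φ) {A : Subgroup G} (hS : A ≤ φ.range) :
    Nat.card (A.comap φ) = Nat.card A := by
  rw [← card_map_of_injective h.inj, map_comap_eq_self hS]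

omit [Finite G] in
theorem Fr.sq_comap (h : Fr φ) {A : Subgroup G} (hA : ∀ x ∈ A, x * x = 1) :
    ∀ y ∈ A.comap φ, y * y = 1 := fun y hy => h.inj (by rw [map_mul, hA _ hy, map_one])

omit [Finite G] in
theorem Fr.wk (h : Fr φ) {A : Subgroup G} (hA : Mem φ A) (hS : A ≤ φ.range) : A = FF φ := by
  rw [FF_eq_map, ← ea6 (h.sq_comap fun x => hA.sq) (by rw [h.card_comap hS, h.card_mem hA]),
    map_comap_eq_self hS]

omit [Finite G] in
theorem norm_of_conj {X Y : Subgroup G} (h : ∀ g ∈ X, ∀ x ∈ Y, g * x * g⁻¹ ∈ Y) :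
    X ≤ normalizer (Y : Set G) := by
  intro g hg
  rw [mem_normalizer_iff]
  refine fun x => ⟨h g hg x, fun hx => ?_⟩
  simpa [mul_assoc] using h _ (inv_mem hg) _ hx

theorem norm_of {Y : Subgroup G} {g : G} (h : ∀ x ∈ Y, g * x * g⁻¹ ∈ Y) :
    g ∈ normalizer (Y : Set G) := mem_normalizer_fintype (S := (Y : Set G)) h

omit [Finite G] in
theorem range_le_norm (φ : M →* G) : φ.range ≤ normalizer (FF φ : Set G) :=
  norm_of_conj (by rintro _ ⟨m, rfl⟩ _ ⟨v, rfl⟩; exact ⟨_, (conj_F φ m v).symm⟩)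

omit [Finite G] in
theorem range_le_normE (φ : M →* G) : φ.range ≤ normalizer (EE φ : Set G) :=
  norm_of_conj (by rintro _ ⟨m, rfl⟩ _ ⟨x, hx, rfl⟩; exact ⟨_, E0_conj x hx m, by simp⟩)

theorem Fr.exists_frame (h : Fr φ) {P : Subgroup G} (hP : IsPGroup 2 P) :
    ∃ g, P ≤ (O7.cj g φ).range := by
  obtain ⟨b, -, hb⟩ := h.syl.exists_conj_le le_top hP
  refine ⟨b⁻¹, fun x hx => ?_⟩
  obtain ⟨m, hm⟩ := hb x hx
  exact ⟨m, by rw [cj_apply, hm]; group⟩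

theorem Fr.frame (h : Fr φ) {A P : Subgroup G} (hA : Mem φ A) (hP : IsPGroup 2 P)
    (hn : P ≤ normalizer (A : Set G)) : ∃ g, FF (O7.cj g φ) = A ∧ P ≤ (O7.cj g φ).range := by
  obtain ⟨g, hg⟩ := h.exists_frame (hP.to_sup_of_normal_right' (h.pg_mem hA) hn)
  exact ⟨g, ((h.cj g).wk ((mem_cj g).2 hA) (le_sup_right.trans hg)).symm, le_sup_left.trans hg⟩

/-- a 2-group normalises every member that it contains -/
theorem Fr.norm (h : Fr φ) {A P : Subgroup G} (hA : Mem φ A) (hP : IsPGroup 2 P) (hAP : A ≤ P) :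
    P ≤ normalizer (A : Set G) ∧ ∀ B, Mem φ B → B ≤ P → B = A := by
  obtain ⟨g, hg⟩ := h.exists_frame hP
  have key : ∀ B, Mem φ B → B ≤ P → B = FF (O7.cj g φ) := fun B hB hBP =>
    (h.cj g).wk ((mem_cj g).2 hB) (hBP.trans hg)
  rw [key A hA hAP]
  exact ⟨hg.trans (range_le_norm _), key⟩

theorem Fr.choose' (h : Fr φ) {A L P : Subgroup G} (hA : Mem φ A) (hAL : A ≤ L) (hP : IsPGroup 2 P)
    (hPL : P ≤ L) : ∃ n ∈ L, ∃ Q : Subgroup G, IsPGroup 2 Q ∧ P ≤ Q ∧ A.map (MulAut.conj n).toMonoidHom ≤ Q := by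
  obtain ⟨Q, hQ, hPQ⟩ := exists_sylIn_ge hPL hP
  obtain ⟨n, hn, h1⟩ := hQ.exists_conj_le hAL (h.pg_mem hA)
  exact ⟨n, hn, Q, hQ.isPGroup, hPQ, by rintro _ ⟨x, hx, rfl⟩; exact h1 x hx⟩

/-- conjugate `A` into a Sylow 2-subgroup of `L` that contains `P` -/
theorem Fr.choose (h : Fr φ) {A L P : Subgroup G} (hA : Mem φ A) (hAL : A ≤ L) (hP : IsPGroup 2 P)
    (hPL : P ≤ L) : ∃ n ∈ L, P ≤ normalizer (A.map (MulAut.conj n).toMonoidHom : Set G) := by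
  obtain ⟨n, hn, Q, hQ, h1, h2⟩ := h.choose' hA hAL hP hPL
  exact ⟨n, hn, h1.trans (h.norm (hA.map n) hQ h2).1⟩

theorem Fr.conj_in (h : Fr φ) {A B L : Subgroup G} (hA : Mem φ A) (hB : Mem φ B) (hAL : A ≤ L)
    (hBL : B ≤ L) : ∃ n ∈ L, A.map (MulAut.conj n).toMonoidHom = B := by
  obtain ⟨n, hn, Q, hQ, h1, h2⟩ := h.choose' hA hAL (h.pg_mem hB) hBL
  exact ⟨n, hn, (h.norm hB hQ h1).2 _ (hA.map n) h2⟩

omit [Finite G] in
theorem Mem.le_norm {A Y : Subgroup G} (hA : Mem φ A) (hYA : Y ≤ A) : A ≤ normalizer (Y : Set G) :=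
  le_trans (b := centralizer (Y : Set G)) (fun _ ha _ hy => (hA.comm (hYA hy) ha).eq)
    (centralizer_le_normalizer _)

/-- `choose` in the normaliser of `Y` -/
theorem Fr.choose_le (h : Fr φ) {A Y P : Subgroup G} (hA : Mem φ A) (hYA : Y ≤ A) (hP : IsPGroup 2 P)
    (hPY : P ≤ normalizer (Y : Set G)) : ∃ B, Mem φ B ∧ Y ≤ B ∧ P ≤ normalizer (B : Set G) := by
  obtain ⟨n, hn, h1⟩ := h.choose hA (hA.le_norm hYA) hP hPY
  refine ⟨_, hA.map n, ?_, h1⟩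
  conv_lhs => rw [← mem_normalizer_iff_map_conj_eq.1 hn]
  exact map_mono hYA

omit [Finite G] in
theorem Fr.act (h : Fr φ) : ∃ a : ↥(normalizer (FF φ : Set G)) →* MulAut V,
    (∀ (g : ↥(normalizer (FF φ : Set G))) v, (g : G) * φ (inl v) * (g : G)⁻¹ = φ (inl (a g v))) ∧
      a.range = Ph φ := by
  let ε : V ≃* FF φ := MonoidHom.ofInjective h.inj_inl
  let a := (MulAut.congr ε.symm).toMonoidHom.comp (FF φ).normalizerMonoidHom
  have ha : ∀ (g : ↥(normalizer (FF φ : Set G))) v,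
      (g : G) * φ (inl v) * (g : G)⁻¹ = φ (inl (a g v)) := fun g v =>
    (congrArg Subtype.val (ε.apply_symm_apply ((FF φ).normalizerMonoidHom g (ε v)))).symm
  refine ⟨a, ha, le_antisymm (by rintro _ ⟨g, rfl⟩; exact ⟨g, ha g⟩) ?_⟩
  rintro ψ ⟨g, hg⟩
  have : g ∈ normalizer (FF φ : Set G) := by
    rw [mem_normalizer_iff]
    refine fun x => ⟨by rintro ⟨v, rfl⟩; exact ⟨_, (hg v).symm⟩, fun ⟨v, hv⟩ => ⟨ψ⁻¹ v, ?_⟩⟩
    have h1 := hg (ψ⁻¹ v)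
    rw [MulAut.apply_inv_self] at h1
    exact (MulAut.conj g).injective (h1.trans hv)
  exact ⟨⟨g, this⟩, MulEquiv.ext fun v => h.inj_inl ((ha ⟨g, this⟩ v).symm.trans (hg v))⟩

omit [Finite G] in
theorem Fr.mem_Ph_of_norm (h : Fr φ) {g : G} (hg : g ∈ normalizer (FF φ : Set G)) :
    ∃ ψ ∈ Ph φ, ∀ v, g * φ (inl v) * g⁻¹ = φ (inl (ψ v)) := by
  obtain ⟨a, h1, -⟩ := h.act
  exact ⟨a ⟨g, hg⟩, ⟨g, h1 ⟨g, hg⟩⟩, h1 ⟨g, hg⟩⟩

theorem norm_of_Ph {g : G} {ψ : MulAut V} (hg : ∀ v, g * φ (inl v) * g⁻¹ = φ (inl (ψ v))) :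
    g ∈ normalizer (FF φ : Set G) := norm_of (by rintro _ ⟨v, rfl⟩; exact ⟨_, (hg v).symm⟩)

theorem Fr.sy (h : Fr φ) : Sy (Ph φ) := by
  obtain ⟨a, h1, h2⟩ := h.act
  obtain ⟨-, R, hR⟩ := sylIn_iff_exists_sylow.1 (h.syl.of_le (range_le_norm φ) le_top)
  have := (sylIn_top R).map a
  rw [← MonoidHom.range_eq_map, h2, hR] at this
  have key : ∀ m : M, a ⟨φ m, range_le_norm φ ⟨m, rfl⟩⟩ = ac m.t := fun m =>
    MulEquiv.ext fun v => h.inj_inl ((h1 _ v).symm.trans (conj_F φ m v))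
  convert this using 1
  ext ψ
  constructor
  · rintro ⟨t, rfl⟩
    exact ⟨_, ⟨inr t, rfl⟩, key (inr t)⟩
  · rintro ⟨⟨_, _⟩, ⟨m, rfl⟩, rfl⟩
    exact ⟨_, (key m).symm⟩

/-- control of fusion inside a subgroup `L ≥ FF φ` -/
theorem Fr.ctrl' (h : Fr φ) {L : Subgroup G} (hL : FF φ ≤ L) {g : G} (hg : g ∈ L) (B : Set V)
    (hB : ∀ v ∈ B, g * φ (inl v) * g⁻¹ ∈ FF φ) :
    ∃ n ∈ L, n ∈ normalizer (FF φ : Set G) ∧ ∀ v ∈ B, g * φ (inl v) * g⁻¹ = n * φ (inl v) * n⁻¹ := by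
  obtain ⟨n, hn, e⟩ := h.conj_in (L := L ⊓ centralizer ((fun v => O7.cj g φ (inl v)) '' B)) ⟨g, rfl⟩
    (mem_self φ) (le_inf (by rintro _ ⟨v, rfl⟩; exact mul_mem (mul_mem hg (hL ⟨v, rfl⟩)) (inv_mem hg))
      (by rintro x hx _ ⟨v, -, rfl⟩; exact ((mem_self _).comm ⟨v, rfl⟩ hx).eq))
    (le_inf hL (by rintro x hx _ ⟨v, hv, rfl⟩; exact ((mem_self φ).comm (hB v hv) hx).eq))
  rw [← FF_cj, cj_cj, FF_cj] at e
  refine ⟨n * g, mul_mem hn.1 hg, mem_normalizer_iff_map_conj_eq.2 e, fun v hv => ?_⟩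
  have h2 : g * φ (inl v) * g⁻¹ * n = n * (g * φ (inl v) * g⁻¹) := hn.2 _ ⟨v, hv, rfl⟩
  calc _ = (g * φ (inl v) * g⁻¹ * n) * n⁻¹ := by group
    _ = _ := by rw [h2]; group

theorem Fr.ctrl (h : Fr φ) (g : G) (B : Set V) (hB : ∀ v ∈ B, g * φ (inl v) * g⁻¹ ∈ FF φ) :
    ∃ ψ ∈ Ph φ, ∀ v ∈ B, g * φ (inl v) * g⁻¹ = φ (inl (ψ v)) := by
  obtain ⟨n, -, h1, h2⟩ := h.ctrl' le_top (mem_top g) B hB
  obtain ⟨ψ, hψ, h3⟩ := h.mem_Ph_of_norm h1
  exact ⟨ψ, hψ, fun v hv => (h2 v hv).trans (h3 v)⟩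

theorem Fr.isConj_iff (h : Fr φ) {u v : V} : IsConj (φ (inl u)) (φ (inl v)) ↔ ∃ ψ ∈ Ph φ, ψ u = v := by
  rw [_root_.isConj_iff]
  constructor
  · rintro ⟨g, hg⟩
    obtain ⟨ψ, hψ, h1⟩ := h.ctrl g {u} (by rintro _ rfl; exact ⟨v, hg.symm⟩)
    exact ⟨ψ, hψ, h.inj_inl ((h1 u rfl).symm.trans hg)⟩
  · rintro ⟨ψ, ⟨g, hg⟩, rfl⟩
    exact ⟨g, hg u⟩

/-- the Thompson transfer lemma -/
theorem Fr.thompson (h : Fr φ) (h2 : ∀ H : Subgroup G, H.index ≠ 2) (th : M → Bool)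
    (hth : ∀ x y, th (x * y) = xor (th x) (th y)) {m : M} (hm : m * m = 1) (h1 : th m = true) :
    ∃ (g : G) (m' : M), g * φ m * g⁻¹ = φ m' ∧ th m' = false ∧
      ∀ c, Commute c m → g * φ c * g⁻¹ ∈ φ.range := by
  have : Fact (Nat.Prime 2) := ⟨Nat.prime_two⟩
  let f : M →* ℤˣ := MonoidHom.mk' (fun m => bif th m then -1 else 1) fun a b => by
    rw [hth]; cases th a <;> cases th b <;> simp
  let e := MonoidHom.ofInjective h.inj
  have ee : ∀ (x : M) (hx : φ x ∈ φ.range), e.symm ⟨φ x, hx⟩ = x := fun x hx => e.symm_apply_eq.2 rfl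
  have f1 : f m = -1 := by simp [f, h1]
  have mr : ∀ x, φ x ∈ φ.range := fun x => ⟨x, rfl⟩
  have odd : Odd φ.range.index := by
    rw [← Nat.not_even_iff_odd, even_iff_two_dvd, ← relIndex_top_right]
    exact h.syl.not_dvd_relIndex
  obtain ⟨g, ⟨m', e'⟩, a1, a2⟩ := CL.MSS.extremal_transfer odd (A := ℤˣ) (IsPGroup.of_card (n := 1) (by simp))
    (f.comp e.symm.toMonoidHom) (y := φ m) (by rw [CL.Iso.pResidual_two_eq_top_iff.2 h2]; exact mem_top _)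
    (by rw [← map_mul, hm, map_one]) (mr m)
    (by change f (e.symm _) ≠ 1; rw [ee, f1]; decide)
    (fun g hg => by
      change _ ∨ _ = f (e.symm _)
      rw [ee, f1]
      exact Int.units_eq_one_or _)
    (R := (centralizer {m}).map φ) ((pg _).map φ) (by
      rintro _ ⟨c, hc, rfl⟩
      rw [mem_centralizer_singleton_iff, ← map_mul, ← map_mul, mem_centralizer_singleton_iff.1 hc])
  refine ⟨g, m', e'.symm, ?_, fun c hc => a2 ⟨φ c, ⟨c, mem_centralizer_singleton_iff.2 hc, rfl⟩, rfl⟩⟩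
  have a3 : f (e.symm ⟨φ m', mr m'⟩) = 1 := by
    rw [← a1]
    exact congrArg (fun x => f (e.symm x)) (Subtype.ext e')
  rw [ee] at a3
  cases hm' : th m'
  · rfl
  · simp [f, hm'] at a3

omit [Finite G] in
/-- restriction of a frame to a subgroup -/
theorem Fr.restrict (h : Fr φ) {N : Subgroup G} (hN : ∀ m, φ m ∈ N) : Fr (φ.codRestrict N hN) := by
  refine ⟨fun a b e => h.inj (congrArg Subtype.val e), ?_⟩
  obtain ⟨-, R, hR⟩ := sylIn_iff_exists_sylow.1 (h.syl.of_le (C := N) (by rintro _ ⟨m, rfl⟩; exact hN m) le_top)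
  refine sylIn_top_iff.2 ⟨R, hR.trans (Subgroup.ext fun x => ?_)⟩
  exact ⟨fun ⟨m, e⟩ => ⟨m, Subtype.ext e⟩, fun ⟨m, e⟩ => ⟨m, congrArg Subtype.val e⟩⟩

/-- images of frames under homomorphisms with kernel of odd order -/
theorem Fr.map (h : Fr φ) {X : Type*} [Group X] {π : G →* X} (hπ : Function.Surjective π)
    (ho : Odd (Nat.card π.ker)) : Fr (π.comp φ) := by
  refine ⟨(injective_iff_map_eq_one _).2 fun m e => h.inj ?_, ?_⟩
  · have : φ m ∈ φ.range ⊓ π.ker := ⟨⟨m, rfl⟩, e⟩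
    rw [PComp.inf_eq_bot_of_isPGroup_of_coprime h.syl.isPGroup (Nat.coprime_two_right.2 ho)] at this
    rw [map_one]; exact this
  · have := h.syl.map π
    rwa [MonoidHom.map_range, ← MonoidHom.range_eq_map, MonoidHom.range_eq_top.2 hπ] at this

/-- `Sev`: the automizer of `FF φ` permutes the points -/
theorem Sev.perm (h : Sev φ) {ψ : MulAut V} (hψ : ψ ∈ Ph φ) : ∃ σ, pv σ = ψ := by
  have k : ∀ i, ∃ j, ψ (vi i) = vi j := fun i => by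
    obtain ⟨j, e⟩ := (h.cls _).1 (((h.cls _).2 ⟨i, rfl⟩).trans (h.toFr.isConj_iff.2 ⟨ψ, hψ, rfl⟩))
    exact ⟨j, inl_inj e⟩
  choose f hf using k
  have hi : Function.Injective f := fun i j e => vi_inj _ _ (ψ.injective (by rw [hf, hf, e]))
  refine ⟨Equiv.ofBijective f (Finite.injective_iff_bijective.1 hi), aut_ext fun i => ?_⟩
  rw [e_eq, pv_two, ← vi_mul, ← vi_mul, map_mul, hf, hf]; rfl

/-- `Sev`: elements of `N(FF φ)` permute the `vi i` -/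
theorem Sev.ind (h : Sev φ) {g : G} (hg : g ∈ normalizer (FF φ : Set G)) : ∃ σ, pv σ ∈ Ph φ ∧
    ∀ v, g * φ (inl v) * g⁻¹ = φ (inl (pv σ v)) := by
  obtain ⟨ψ, h1, h2⟩ := h.toFr.mem_Ph_of_norm hg
  obtain ⟨σ, rfl⟩ := h.perm h1
  exact ⟨σ, h1, h2⟩

/-- `Sev`: `N(FF φ)` is transitive on the `vi i` -/
theorem Sev.trans (h : Sev φ) (i j : Fin 7) : ∃ g σ, pv σ ∈ Ph φ ∧ σ i = j ∧
    ∀ v, g * φ (inl v) * g⁻¹ = φ (inl (pv σ v)) := by
  obtain ⟨ψ, h1, h2⟩ := h.toFr.isConj_iff.1 (((h.cls _).2 ⟨i, rfl⟩).symm.trans ((h.cls _).2 ⟨j, rfl⟩))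
  obtain ⟨σ, rfl⟩ := h.perm h1
  obtain ⟨g, hg⟩ := id h1
  exact ⟨g, σ, h1, vi_inj _ _ (by rw [← pv_vi, h2]), hg⟩

omit [Finite G] in
/-- conjugacy of involutions lifts along a homomorphism with kernel of odd order -/
theorem lift_conj {X : Type*} [Group X] [Finite G] {π : G →* X} (ho : Odd (Nat.card π.ker)) {x y : G}
    (hx : x * x = 1) (hy : y * y = 1) (e : π x = π y) : ∃ k : ℤ, (x * y) ^ k * y * ((x * y) ^ k)⁻¹ = x ∧
      π ((x * y) ^ k) = 1 := by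
  have h1 : x * y ∈ π.ker := by rw [MonoidHom.mem_ker, map_mul, e, ← map_mul, hy, map_one]
  obtain ⟨k, hk⟩ := (Odd.of_dvd_nat ho (orderOf_dvd_natCard _ h1))
  refine ⟨k + 1, ?_, zpow_mem h1 _⟩
  have h2 : y * (x * y) * y⁻¹ = (x * y)⁻¹ := by
    rw [mul_inv_rev, inv_eq_of_mul_eq_one_right hx, inv_eq_of_mul_eq_one_right hy, mul_assoc, mul_assoc, hy,
      mul_one]
  have h3 : ∀ n : ℤ, y * ((x * y) ^ n)⁻¹ = (x * y) ^ n * y := fun n => by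
    rw [← inv_zpow, ← h2, conj_zpow, ← mul_assoc, ← mul_assoc, hy, one_mul, inv_eq_of_mul_eq_one_right hy]
  have h4 : (x * y) ^ ((k : ℤ) + 1 + (k + 1)) = x * y := by
    rw [show (k : ℤ) + 1 + (k + 1) = ((2 * k + 1 : ℕ) : ℤ) + 1 by push_cast; ring, zpow_add_one, zpow_natCast, ← hk,
      pow_orderOf_eq_one, one_mul]
  rw [mul_assoc, h3, ← mul_assoc, ← zpow_add, h4, mul_assoc, hy, mul_one]

/-- fusion in `W(D₆)` is fusion in `N` -/
theorem PiH.conj {N : Subgroup G} {π : N →* YK.HH} (h : PiH φ N π) {m m' : M} (hm : m * m = 1) (hm' : m' * m' = 1)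
    {w : YK.HH} (e : w * mu m * w⁻¹ = mu m') : ∃ n : N, π n = w ∧ (n : G) * φ m * (n : G)⁻¹ = φ m' := by
  obtain ⟨n, rfl⟩ := h.surj w
  have s : ∀ m : M, m * m = 1 → (⟨φ m, h.le ⟨m, rfl⟩⟩ : N) * ⟨φ m, h.le ⟨m, rfl⟩⟩ = 1 := fun m e =>
    Subtype.ext (by show φ m * φ m = 1; rw [← map_mul, e, map_one])
  obtain ⟨k, h1, h2⟩ := lift_conj h.odd (s m' hm') (y := n * ⟨φ m, h.le ⟨m, rfl⟩⟩ * n⁻¹)
    (by rw [conj_mul, s m hm]; group) (by rw [map_mul, map_mul, map_inv, h.hom, h.hom, e])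
  refine ⟨_ * n, by rw [map_mul, h2, one_mul], ?_⟩
  have := congrArg Subtype.val h1
  simp only [coe_mul, coe_inv] at this ⊢
  exact Eq.trans (by group) this

end CL.O7
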