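import Cfsg.Agent.INV.O7.Bas
import Cfsg.Agent.INV.YK.Gen

/-! Facts on `W(D₆) = YK.HH` and its Sylow subgroup `mu.range`. -/

set_option autoImplicit false

namespace CL.O7
open Subgroup CL.Fus Equiv

/-- the sign changes -/
abbrev EH : Subgroup YK.HH := E0.map mu

/-- does `mu m` move the point `2 i` -/
def fm (m : M) (i : Fin 6) : Bool := q m ⟨2 * i, by omega⟩ != ⟨2 * i, by omega⟩

theorem fm_ext : ∀ m ∈ E0, ∀ m' ∈ E0, (∀ i, fm m i = fm m' i) → m = m' := by decide +kernel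

theorem mem_EH {w : YK.HH} : w ∈ EH ↔ YK.pp w = 1 := by
  refine ⟨?_, fun h => ?_⟩
  · rintro ⟨m, hm, rfl⟩
    exact YK.pp_eq fun i => by
      rw [YK.dg_code, mu_apply, (mem_E0_iff m).1 hm]
      show 2 * i.val / 2 = i.val
      omega
  · have k : YK.allF (fun c => !(K.allLt (fun i => Nat.beq (Nat.shiftRight (YK.dg c i) 1) i) 6) ||
        anyN 8 fun v => anyN 4 fun t => Nat.beq c (cd ⟨vv (3 * (v % 2) + 12 * (v / 2 % 2) + 48 * (v / 4)), tt t⟩))
        5 11035680 = true := by decide +kernel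
    have k1 := YK.all_of k w
    have k2 : K.allLt (fun i => Nat.beq (Nat.shiftRight (YK.dg (YK.code w) i) 1) i) 6 = true :=
      K.allLt_iff.2 fun i hi => by
        have := YK.pf_val w ⟨i, hi⟩
        rw [show YK.pf w ⟨i, hi⟩ = YK.pp w ⟨i, hi⟩ from rfl, h] at this
        rw [Nat.beq_eq]
        exact (Nat.shiftRight_eq_div_pow _ 1).trans this.symm
    rw [k2, Bool.not_true, Bool.false_or] at k1
    obtain ⟨v, hv, k3⟩ := anyN_iff.1 k1
    obtain ⟨t, ht, k4⟩ := anyN_iff.1 k3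
    refine ⟨_, ?_, ((YK.code_iff _ _).2 (Nat.eq_of_beq_eq_true k4)).symm⟩
    exact (by decide +kernel : ∀ v < 8, ∀ t < 4,
      (⟨vv (3 * (v % 2) + 12 * (v / 2 % 2) + 48 * (v / 4)), tt t⟩ : M) ∈ E0) v hv t ht

theorem EH_eq : EH = YK.pp.ker := Subgroup.ext fun _ => mem_EH

instance : EH.Normal := EH_eq ▸ inferInstance

theorem pp_rf : ∀ i j : Fin 6, YK.pp (YK.rf ⟨2 * i, by omega⟩ ⟨2 * j, by omega⟩) = swap i j := fun i j =>
  YK.pp_eq (by rw [YK.code_rf]; revert i j; decide +kernel)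

theorem pp_surj : Function.Surjective YK.pp := fun σ => by
  refine Perm.swap_induction_on σ ⟨1, map_one _⟩ ?_
  rintro _ i j - ⟨w, rfl⟩
  exact ⟨_ * w, by rw [map_mul, pp_rf]⟩

theorem card_HH : Nat.card YK.HH = 23040 := by
  rw [← YK.pp.ker.card_mul_index, index_ker, MonoidHom.range_eq_top.2 pp_surj, card_top, ← EH_eq,
    card_map_of_injective mu_inj, card_E0, Nat.card_perm, Nat.card_fin]
  rfl

theorem fr_mu : Fr mu := fr_of_card mu_inj (k := 45) card_HH (by decide)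

theorem conj_E (w : YK.HH) {m : M} (hm : m ∈ E0) :
    ∃ m' ∈ E0, w * mu m * w⁻¹ = mu m' ∧ ∀ i, fm m' (YK.pp w i) = fm m i := by
  obtain ⟨m', h1, h2⟩ := Normal.conj_mem inferInstance _ (mem_map_of_mem mu hm) w
  refine ⟨m', h1, h2.symm, fun i => ?_⟩
  have k : ∀ m ∈ E0, ∀ x : Fin 12, fm m ⟨x / 2, by omega⟩ = (q m x != x) := by decide +kernel
  have h3 : q m' (w.1 ⟨2 * i, by omega⟩) = w.1 (q m ⟨2 * i, by omega⟩) := by
    rw [← mu_apply, ← mu_apply, h2]; simp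
  refine (k m' h1 (w.1 ⟨2 * i, by omega⟩)).trans ?_
  rw [h3, fm]
  exact Bool.eq_iff_iff.2 (by rw [bne_iff_ne, bne_iff_ne, w.1.injective.ne_iff])

theorem cen_EH {w : YK.HH} (h : ∀ m ∈ E0, Commute w (mu m)) : w ∈ EH := by
  refine mem_EH.2 (Equiv.ext fun i => ?_)
  have k : ∀ i j : Fin 6, (∀ m ∈ E0, fm m j = fm m i) → j = i := by decide +kernel
  refine k _ _ fun m hm => ?_
  obtain ⟨m', -, h2, h3⟩ := conj_E w hm
  rw [(h m hm).eq, mul_inv_cancel_right] at h2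
  exact mu_inj h2 ▸ h3 i

theorem conj_of_cl {m m' : M} (h0 : YK.cl (cd m) ≠ 0) (h : YK.cl (cd m) = YK.cl (cd m')) :
    ∃ w, w * mu m * w⁻¹ = mu m' := by
  obtain ⟨-, k, e⟩ := YK.conj_rep (h := mu m) h0
  obtain ⟨-, k', e'⟩ := YK.conj_rep (h := mu m') (h ▸ h0)
  rw [code_mu] at e e'
  exact ⟨k' * k⁻¹, by rw [← e, ← e', h]; group⟩

def CW : ℕ := 0x80000080080000089000009009000009a00000a00a00000a70000070070000078000080000800008a0000a0000a0000a90000900009000097000070000700007255100000000255100000000000000000000000000000000255100000000255120025005500510010000000000000000000000000000000020025005500510012002000000002002500500000000500550050000000050051001000000001001344248854885255148858a9789a75776488589a78a9757762551577657761660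

/-- the classes `YK.cl (cd m)`, as a table: `cw (inl (vv n)) = 1, 2, 3, 4, 6, 7` for `n = 3, 15, 63, 47, 16, 5` -/
def cw (m : M) : ℕ := Nat.mod (Nat.shiftRight CW (Nat.mul 4 (Nat.add (Nat.mul 64 m.t.n) m.v.n))) 16

theorem cw_eq : ∀ m, YK.cl (cd m) = cw m := by decide +kernel

theorem cw_ne : ∀ m, cw m ≠ 0 ↔ m * m = 1 ∧ m ≠ 1 := by decide +kernel

theorem conj_of_cw {m m' : M} (h0 : cw m ≠ 0) (h : cw m = cw m') : ∃ w, w * mu m * w⁻¹ = mu m' :=
  conj_of_cl (cw_eq m ▸ h0) (by rw [cw_eq, cw_eq, h])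

theorem odd_bot {Y : Subgroup YK.HH} (ho : Odd (Nat.card Y))
    (hn : ∀ v ∈ Z0, mu (inl v) ∈ normalizer (Y : Set YK.HH)) : Y = ⊥ := by
  have hb : EH ⊓ Y = ⊥ := PComp.inf_eq_bot_of_isPGroup_of_coprime ((pg E0).map mu) (Nat.coprime_two_right.2 ho)
  refine eq_bot_iff.2 fun y hy => ?_
  have h1 : ∀ v ∈ Z0, ∀ i, fm (inl v) (YK.pp y i) = fm (inl v) i := fun v hv i => by
    have hE : inl v ∈ E0 := ⟨hv, (by decide : (1 : TT).n < 4)⟩
    obtain ⟨m', -, h2, h3⟩ := conj_E y hE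
    have : mu (inl v) * (y * (mu (inl v))⁻¹ * y⁻¹) ∈ EH ⊓ Y := ⟨mul_mem (mem_map_of_mem _ hE)
      (Normal.conj_mem inferInstance _ (inv_mem (mem_map_of_mem _ hE)) y), by
        rw [← mul_assoc, ← mul_assoc]
        exact mul_mem ((mem_normalizer_iff.1 (hn v hv) y).1 hy) (Y.inv_mem hy)⟩
    rw [hb, mem_bot, mul_eq_one_iff_inv_eq, ← inv_inj, inv_inv, conj_inv, inv_inv, h2] at this
    exact mu_inj this ▸ h3 i
  have k : ∀ i j : Fin 6, (∀ v ∈ Z0, fm (inl v) j = fm (inl v) i) → j.val / 2 = i.val / 2 := by decide +kernel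
  have h2 : y * y ∈ EH := mem_EH.2 (Equiv.ext fun i => by
    have a := k _ _ fun v hv => h1 v hv i
    have b := k _ _ fun v hv => h1 v hv (YK.pp y i)
    rw [map_mul, Perm.mul_apply, Perm.one_apply]
    by_cases c : YK.pp y i = i
    · rw [c, c]
    · have d := (YK.pp y).injective.ne c
      simp only [ne_eq, Fin.ext_iff] at c d ⊢
      omega)
  have h3 : y * y ∈ EH ⊓ Y := ⟨h2, mul_mem hy hy⟩
  rw [hb, mem_bot] at h3
  exact PComp.eq_one_of_coprime_of_pow (p := 2) (k := 1)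
    (PComp.coprime_orderOf_of_mem (Nat.coprime_two_right.2 ho) hy) (by rw [pow_one, pow_two, h3])

/-- `(0 2 4) (1 3 5)` -/
def s3 : Perm (Fin 7) := swap 0 2 * swap 2 4 * (swap 1 3 * swap 3 5)

def w3 : YK.HH := YK.rf 0 4 * YK.rf 4 8 * (YK.rf 2 6 * YK.rf 6 10)

theorem w3_conj (v : V) : w3 * mu (inl v) * w3⁻¹ = mu (inl (pv s3 v)) := by
  have k : ∀ i, w3 * mu (inl (e i)) * w3⁻¹ = mu (inl (pv s3 (e i))) := fun i => by
    rw [mul_inv_eq_iff_eq_mul, YK.code_iff, pv_apply]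
    simp only [w3, YK.code_mul, YK.code_rf, code_mu]
    revert i
    decide +kernel
  exact DFunLike.congr_fun (hom_ext (f := (MulAut.conj w3).toMonoidHom.comp (mu.comp inl))
    (g := (mu.comp inl).comp (pv s3).toMonoidHom) k) v

theorem mu_vi4 : mu (inl (vi 4)) = YK.rf 8 11 := by rw [YK.code_iff, YK.code_rf, code_mu]; decide +kernel
theorem mu_vi5 : mu (inl (vi 5)) = YK.rf 8 10 := by rw [YK.code_iff, YK.code_rf, code_mu]; decide +kernel

theorem gen_HH {L : Subgroup YK.HH} (h1 : w3 ∈ L)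
    (h2 : centralizer {mu (inl (vi 5))} ⊓ centralizer {mu (inl (vi 4))} ≤ L) : L = ⊤ := by
  have k : ∀ w, Commute w (YK.rf 8 10) ∧ Commute w (YK.rf 8 11) → w ∈ L := fun w h =>
    h2 ⟨mem_centralizer_singleton_iff.2 (mu_vi5 ▸ h.1), mem_centralizer_singleton_iff.2 (mu_vi4 ▸ h.2)⟩
  have a : YK.rf 2 4 ∈ L := k _ (by hdec)
  exact eq_top_iff.2 fun w _ => YK.mem_W6 (k _ (by hdec)) a (k _ (by hdec))
    (YK.cj h1 a (by decide +kernel) (by decide +kernel)) (k _ (by hdec)) (k _ (by hdec)) w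

variable {G : Type*} [Group G] [Finite G] {φ : M →* G} {N : Subgroup G} {π : N →* YK.HH}

/-- an element of `W(D₆)` that normalises `mu P` lifts to an element that normalises `φ P` -/
theorem PiH.lift (h : PiH φ N π) {P : Subgroup M} {w : YK.HH} (hw : ∀ m ∈ P, ∃ m' ∈ P, w * mu m * w⁻¹ = mu m') :
    ∃ n : N, π n = w ∧ ∀ m ∈ P, ∀ m', w * mu m * w⁻¹ = mu m' → (n : G) * φ m * (n : G)⁻¹ = φ m' := by
  obtain ⟨n, rfl⟩ := h.surj w
  let f : M →* N := φ.codRestrict N fun m => h.le ⟨m, rfl⟩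
  have hf : ∀ m, π (f m) = mu m := fun m => h.hom m _
  have hP : IsPGroup 2 (P.map f) := (pg P).map f
  have hs : SylIn 2 (P.map f) ((P.map mu).comap π) := by
    refine sylIn_of_not_dvd_relIndex (by rintro _ ⟨m, hm, rfl⟩; exact ⟨m, hm, (hf m).symm⟩) hP ?_
    have e : (P.map mu).comap π = P.map f ⊔ π.ker := by
      rw [← comap_map_eq, map_map]; exact congrArg _ (congrArg (fun x => P.map x) (MonoidHom.ext hf).symm)
    intro hd
    have h1 := PComp.card_sup_dvd_of_le_normalizer (H := P.map f) (N := π.ker) (by rw [normalizer_eq_top]; exact le_top)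
    rw [← e, ← card_mul_index ((P.map f).subgroupOf _), Nat.card_congr (subgroupOfEquivOfLe (e ▸ le_sup_left)).toEquiv,
      Nat.mul_dvd_mul_iff_left Nat.card_pos] at h1
    exact (Nat.not_even_iff_odd.2 h.odd) (even_iff_two_dvd.2 (hd.trans h1))
  obtain ⟨b, hb, h1⟩ := hs.exists_conj_le (C := (P.map f).map (MulAut.conj n).toMonoidHom) (by
    rintro _ ⟨_, ⟨m, hm, rfl⟩, rfl⟩
    obtain ⟨m', h1, h2⟩ := hw m hm
    exact ⟨m', h1, by simp [hf, h2]⟩) (hP.map _)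
  obtain ⟨p, hp, e⟩ := hb
  refine ⟨(f p)⁻¹ * b * n, by simp [hf, e], fun m hm m' e' => ?_⟩
  obtain ⟨x, -, hx⟩ := h1 _ ⟨_, ⟨m, hm, rfl⟩, rfl⟩
  have h2 : (f p)⁻¹ * b * n * f m * ((f p)⁻¹ * b * n)⁻¹ = f (p⁻¹ * x * p) := by
    simp only [map_mul, map_inv, hx, MulEquiv.coe_toMonoidHom, MulAut.conj_apply]; group
  have h3 : p⁻¹ * x * p = m' := mu_inj (by
    rw [← hf, ← h2, ← e']; simp [hf, e])
  exact (congrArg Subtype.val h2).trans (congrArg φ h3)

theorem PiH.s3 (h : PiH φ N π) : ∃ n : N, π n = w3 ∧ ∀ v, (n : G) * φ (inl v) * (n : G)⁻¹ = φ (inl (pv O7.s3 v)) := by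
  obtain ⟨n, h1, h2⟩ := h.lift (P := inl.range) (w := w3) (by
    rintro _ ⟨v, rfl⟩; exact ⟨_, ⟨_, rfl⟩, w3_conj v⟩)
  exact ⟨n, h1, fun v => h2 _ ⟨v, rfl⟩ _ (w3_conj v)⟩

theorem PiE.s3 (h : PiE φ) : pv s3 ∈ Ph φ := by
  obtain ⟨π, h⟩ := h
  obtain ⟨n, -, h2⟩ := h.s3
  exact ⟨n, h2⟩

omit [Finite G] in
theorem PiH.ker_comm (h : PiH φ N π) (hN : N ≤ normalizer (EE φ : Set G)) {k : N} (hk : π k = 1) {m : M}
    (hm : m ∈ E0) : Commute (k : G) (φ m) := by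
  obtain ⟨m', -, e⟩ := (mem_normalizer_iff.1 (hN k.2) _).1 (mem_map_of_mem φ hm)
  have : mu m' = mu m := by
    rw [← h.hom m' (h.le ⟨_, rfl⟩), show (⟨φ m', h.le ⟨_, rfl⟩⟩ : N) = k * ⟨φ m, h.le ⟨_, rfl⟩⟩ * k⁻¹ from
      Subtype.ext e, map_mul, map_mul, map_inv, hk, h.hom]
    group
  rw [mu_inj this] at e
  exact mul_inv_eq_iff_eq_mul.1 e.symm

omit [Finite G] in
theorem PiE.le_cen (h : PiE φ) : normalizer (EE φ : Set G) ≤ centralizer {φ al} := fun g hg => by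
  obtain ⟨π, h⟩ := h
  obtain ⟨m', -, e⟩ := (mem_normalizer_iff.1 hg _).1 (mem_map_of_mem φ (by decide +kernel : al ∈ E0))
  have : mu m' = mu al := by
    rw [← h.hom m' (h.le ⟨_, rfl⟩), show (⟨φ m', h.le ⟨_, rfl⟩⟩ : normalizer (EE φ : Set G)) =
      ⟨g, hg⟩ * ⟨φ al, h.le ⟨_, rfl⟩⟩ * ⟨g, hg⟩⁻¹ from Subtype.ext e, map_mul, map_mul, map_inv, h.hom, mu_al,
      (YK.al_comm _).eq, mul_inv_cancel_right]
  rw [mu_inj this] at e
  exact mem_centralizer_singleton_iff.2 (mul_inv_eq_iff_eq_mul.1 e.symm)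

/-- fusion in `W(D₆)` is fusion in `N(EE φ) ≤ C(al)` -/
theorem PiE.conj (h : PiE φ) {m m' : M} (h0 : cw m ≠ 0) (e : cw m = cw m') :
    ∃ n ∈ normalizer (EE φ : Set G), n * φ m * n⁻¹ = φ m' := by
  obtain ⟨π, h⟩ := h
  obtain ⟨w, hw⟩ := conj_of_cw h0 e
  obtain ⟨n, -, h2⟩ := h.conj ((cw_ne m).1 h0).1 ((cw_ne m').1 (e ▸ h0)).1 hw
  exact ⟨n, n.2, h2⟩

end CL.O7
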