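import Cfsg.Agent.INV.O7.Hh

/-! Transvections of `𝔽₂⁵`, the even subsets of six points. -/

set_option autoImplicit false
set_option synthInstance.maxSize 4000

namespace CL.O7.Ps
open Subgroup CL.Fus Equiv

/-- even subsets of six points -/
def W : Type := Fin 32

instance : DecidableEq W := fun a b =>
  decidable_of_iff (Nat.beq (Fin.val a) (Fin.val b) = true) (Nat.beq_eq ▸ Fin.ext_iff.symm)
instance : Finite W := inferInstanceAs (Finite (Fin 32))

def ww (n : ℕ) : W := ⟨Nat.mod n 32, Nat.mod_lt _ (by decide)⟩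
def W.n (v : W) : ℕ := Fin.val v

theorem ww_val (v : W) : ww (Fin.val v) = v := Fin.ext (Nat.mod_eq_of_lt (Fin.isLt v))

instance (p : W → Prop) [h : DecidablePred p] : Decidable (∀ v, p v) :=
  decidable_of_iff (allN 32 (fun i => decide (p (ww i))) = true) (allN_iff.trans
    ⟨fun H v => ww_val v ▸ of_decide_eq_true (H _ (Fin.isLt v)), fun H _ _ => decide_eq_true (H _)⟩)
instance (p : W → Prop) [h : DecidablePred p] : Decidable (∃ v, p v) :=
  decidable_of_iff (anyN 32 (fun i => decide (p (ww i))) = true) (anyN_iff.trans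
    ⟨fun ⟨_, _, H⟩ => ⟨_, of_decide_eq_true H⟩,
      fun ⟨v, H⟩ => ⟨_, Fin.isLt v, decide_eq_true ((ww_val v).symm ▸ H)⟩⟩)

instance : CommGroup W where
  mul a b := ⟨Nat.xor a.n b.n, Nat.xor_lt_two_pow (n := 5) (Fin.isLt a) (Fin.isLt b)⟩
  one := ⟨0, by decide⟩
  inv a := a
  mul_assoc _ _ _ := Fin.ext (Nat.xor_assoc _ _ _)
  one_mul _ := Fin.ext (Nat.zero_xor _)
  mul_one _ := Fin.ext (Nat.xor_zero _)
  inv_mul_cancel _ := Fin.ext (Nat.xor_self _)
  mul_comm _ _ := Fin.ext (Nat.xor_comm _ _)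

@[simp] theorem W.mul_self (a : W) : a * a = 1 := inv_mul_cancel a
@[simp] theorem W.mul_self' (a b : W) : a * (a * b) = b := inv_mul_cancel_left a b

def dot (l y : W) : Bool := Nat.testBit 0x96696996 (Nat.land l.n y.n)
def has (w : W) (i : Fin 6) : Bool := Nat.testBit (w.n + 32 * (dot (ww 31) w).toNat) i.1
def e (i : Fin 5) : W := ww (2 ^ i.1)
def two (i j : Fin 6) : W := ww (2 ^ i.1 ^^^ 2 ^ j.1)
/-- the mask of `has y i + has y j` -/
def lam (i j : Fin 6) : W := ww ((2 ^ i.1 - i.1 / 5) ^^^ (2 ^ j.1 - j.1 / 5))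
def pw (x : W) (b : Bool) : W := bif b then x else 1
def tf (x l y : W) : W := y * pw x (dot l y)
def mk5 (b : Fin 5 → Bool) : W :=
  ww ((b 0).toNat + 2 * (b 1).toNat + 4 * (b 2).toNat + 8 * (b 3).toNat + 16 * (b 4).toNat)
def dl (f : W → W) (l : W) : W := mk5 fun i => dot l (f (e i))
def cp (f : Fin 6 → Fin 6) (y : W) : W := mk5 fun i => has y (f i.castSucc)

theorem dot_mul : ∀ l a b, dot l (a * b) = xor (dot l a) (dot l b) := by decide +kernel
theorem mul_dot : ∀ a b y, dot (a * b) y = xor (dot a y) (dot b y) := by decide +kernel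
theorem dot_one : ∀ l, dot l 1 = false := by decide +kernel
theorem one_dot : ∀ l, dot 1 l = false := by decide +kernel
theorem ex_dot : ∀ l, l ≠ 1 → ∃ y, dot l y = true := by decide +kernel
theorem dot_pw (l x : W) (b : Bool) : dot l (pw x b) = (b && dot l x) := by cases b <;> simp [pw, dot_one]
theorem has_mul : ∀ u v i, has (u * v) i = xor (has u i) (has v i) := by decide +kernel
theorem has_one : ∀ i, has 1 i = false := by decide +kernel
theorem has_ext : ∀ u v, (∀ i : Fin 5, has u i.castSucc = has v i.castSucc) → u = v := by decide +kernel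
theorem has_two : ∀ i j k, has (two i j) k = xor (decide (k = i)) (decide (k = j)) := by decide +kernel
theorem e_eq : ∀ i : Fin 5, e i = two i.castSucc 5 := by decide +kernel
theorem mk5_spec (b : Fin 5 → Bool) (i : Fin 5) : dot (mk5 b) (e i) = b i ∧ has (mk5 b) i.castSucc = b i := by
  revert b i; decide +kernel

theorem map_pw (f : W →* W) (x : W) (b : Bool) : f (pw x b) = pw (f x) b := by cases b <;> simp [pw]

theorem ind {P : W → Prop} (h1 : P 1) (hm : ∀ a b, P a → P b → P (a * b)) (he : ∀ i, P (e i)) (y : W) : P y := by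
  have k : ∀ i b, P (pw (e i) b) := fun i b => by cases b; exacts [h1, he i]
  rw [(by decide +kernel : ∀ y, y = pw (e 0) (has y 0) * pw (e 1) (has y 1) * pw (e 2) (has y 2) * pw (e 3) (has y 3) *
    pw (e 4) (has y 4)) y]
  exact hm _ _ (hm _ _ (hm _ _ (hm _ _ (k _ _) (k _ _)) (k _ _)) (k _ _)) (k _ _)

theorem dot_dl (g : MulAut W) (l y : W) : dot (dl g l) y = dot l (g y) :=
  ind (P := fun y => dot (dl g l) y = dot l (g y)) (by rw [map_one, dot_one, dot_one])
    (fun a b ha hb => by rw [map_mul, dot_mul, dot_mul, ha, hb]) (fun i => (mk5_spec _ i).1) y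

/-- `ψ` is the transvection with centre `x` and axis `l` -/
structure TV (ψ : MulAut W) (x l : W) : Prop where
  x1 : x ≠ 1
  l1 : l ≠ 1
  lx : dot l x = false
  eq : ∀ y, ψ y = tf x l y

/-- `ψ` is a transvection -/
def IsTV (ψ : MulAut W) : Prop := ∃ x l, TV ψ x l

variable {t u : MulAut W} {x l x' l' : W} {Φ : Subgroup (MulAut W)}

theorem TV.conj (h : TV t x l) (g : MulAut W) : TV (g * t * g⁻¹) (g x) (dl ⇑g⁻¹ l) := by
  refine ⟨by simpa using h.x1, fun e => ?_, by rw [dot_dl, MulAut.inv_apply_self, h.lx], fun y => ?_⟩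
  · obtain ⟨y, hy⟩ := ex_dot l h.l1
    have := dot_dl g⁻¹ l (g y)
    rw [e, one_dot, MulAut.inv_apply_self, hy] at this
    exact Bool.noConfusion this
  · rw [MulAut.mul_apply, MulAut.mul_apply, h.eq, tf, tf, map_mul, MulAut.apply_inv_self, dot_dl]
    exact congrArg _ (map_pw g.toMonoidHom _ _)

theorem IsTV.conj (h : IsTV t) (g : MulAut W) : IsTV (g * t * g⁻¹) := h.elim fun _ h => h.elim fun _ h => ⟨_, _, h.conj g⟩

theorem TV.ext (h : TV t x l) (h' : TV u x l) : t = u := MulEquiv.ext fun y => (h.eq y).trans (h'.eq y).symm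

theorem TV.sq (h : TV t x l) : t * t = 1 := MulEquiv.ext fun y => by
  simp only [MulAut.mul_apply, h.eq, tf, dot_mul, dot_pw, h.lx, MulAut.one_apply]
  cases dot l y <;> simp [pw, mul_assoc]

theorem TV.four (h : TV t x l) (h' : TV u x' l') (e : dot l x' = false ∨ dot l' x = false) : (t * u) ^ 2 ^ 2 = 1 :=
  MulEquiv.ext fun y => by
    simp only [show 2 ^ 2 = 4 from rfl, pow_succ, pow_zero, one_mul, MulAut.mul_apply, h.eq, h'.eq, tf, dot_mul, dot_pw,
      h.lx, h'.lx, MulAut.one_apply]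
    revert e
    cases dot l y <;> cases dot l' y <;> cases dot l x' <;> cases dot l' x <;>
      simp [pw, mul_assoc, mul_comm x' x]

theorem TV.comm (h : TV t x l) (h' : TV u x' l') (e : dot l x' = false) (e' : dot l' x = false) : Commute t u :=
  MulEquiv.ext fun y => by
    simp only [MulAut.mul_apply, h.eq, h'.eq, tf, dot_mul, dot_pw, e, e', Bool.and_false, Bool.xor_false]
    exact mul_right_comm ..

theorem TV.of_comm (h : TV t x l) (h' : TV u x' l') (e : Commute t u) : dot l x' = false := by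
  obtain ⟨y, hy⟩ := ex_dot l' h'.l1
  have k := DFunLike.congr_fun e.eq y
  have k1 := h.x1
  have k2 := h.lx
  simp only [MulAut.mul_apply, h.eq, h'.eq, tf, dot_mul, dot_pw, hy, mul_assoc, mul_right_inj] at k
  by_contra hc
  rw [Bool.not_eq_false] at hc
  rw [hc] at k
  revert k
  cases dot l y <;> cases dot l' x <;> simp [pw, k1, mul_comm x x', eq_comm (a := x')]
  rintro rfl
  rw [k2] at hc
  exact Bool.noConfusion hc

/-- the condition on two transvections -/
def Cond (x l x' l' : W) : Prop := (x = x' ∧ l = l') ∨ (x ≠ x' ∧ l ≠ l' ∧ dot l x' = dot l' x)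

instance (x l x' l' : W) : Decidable (Cond x l x' l') := inferInstanceAs (Decidable (_ ∨ _))

/-- two transvections that generate a 2-group commute, and their product is not a transvection -/
def Good (Φ : Subgroup (MulAut W)) : Prop :=
  ∀ t ∈ Φ, ∀ u ∈ Φ, IsTV t → IsTV u → (t * u) ^ 2 ^ 2 = 1 → Commute t u ∧ ¬ IsTV (t * u)

theorem Good.cond (G : Good Φ) (ht : t ∈ Φ) (hu : u ∈ Φ) (h : TV t x l) (h' : TV u x' l') : Cond x l x' l' := by
  by_cases e : dot l x' = false ∨ dot l' x = false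
  · obtain ⟨k1, k2⟩ := G t ht u hu ⟨_, _, h⟩ ⟨_, _, h'⟩ (h.four h' e)
    have e1 := h.of_comm h' k1
    have e2 := h'.of_comm h k1.symm
    by_cases a : x = x' <;> by_cases b : l = l'
    · exact .inl ⟨a, b⟩
    · subst a
      refine absurd ⟨x, l * l', h.x1, fun k => b (mul_eq_one_iff_eq_inv.1 k), by rw [mul_dot, e1, e2]; rfl, fun y => ?_⟩ k2
      simp only [MulAut.mul_apply, h.eq, h'.eq, tf, dot_mul, mul_dot, dot_pw, e1]
      cases dot l y <;> cases dot l' y <;> simp [pw, mul_assoc]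
    · subst b
      refine absurd ⟨x * x', l, fun k => a (mul_eq_one_iff_eq_inv.1 k), h.l1, by rw [dot_mul, e1, e2]; rfl, fun y => ?_⟩ k2
      simp only [MulAut.mul_apply, h.eq, h'.eq, tf, dot_mul, dot_pw, e1]
      cases dot l y <;> simp [pw, mul_assoc, mul_comm x x']
    · exact .inr ⟨a, b, e1.trans e2.symm⟩
  · simp only [not_or, Bool.not_eq_false] at e
    exact .inr ⟨fun k => by simp [← k, h.lx] at e, fun k => by simp [k, h'.lx] at e, e.1.trans e.2.symm⟩

theorem Good.conj (G : Good Φ) (β : MulAut W) : Good (Φ.map (MulAut.conj β).toMonoidHom) := by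
  rintro _ ⟨t, ht, rfl⟩ _ ⟨u, hu, rfl⟩ h h' e
  have k : ∀ t, IsTV ((MulAut.conj β).toMonoidHom t) → IsTV t := fun t h => by simpa [mul_assoc] using h.conj β⁻¹
  rw [← map_mul, ← map_pow] at e
  obtain ⟨k1, k2⟩ := G t ht u hu (k t h) (k u h') ((MulAut.conj β).injective (e.trans (map_one _).symm))
  exact ⟨k1.map _, fun h => k2 (k _ (map_mul (MulAut.conj β).toMonoidHom t u ▸ h))⟩

/-- `χ` is induced by the permutation `σ` -/
def PA (σ : Perm (Fin 6)) (χ : MulAut W) : Prop := ∀ y i, has (χ y) (σ i) = has y i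

theorem PA.eq {σ : Perm (Fin 6)} (h : PA σ t) (y : W) : t y = cp ⇑σ⁻¹ y := has_ext _ _ fun i => by
  rw [cp, (mk5_spec _ i).2, ← h y]; simp

/-- the transposition belongs to `Φ` -/
def R (Φ : Subgroup (MulAut W)) (i j : Fin 6) : Prop := ∃ t ∈ Φ, TV t (two i j) (lam i j)

theorem Good.fin (G : Good Φ) (r0 : R Φ 0 1) (r1 : R Φ 2 3) (r2 : R Φ 4 5) {i j i' j' : Fin 6} (r3 : R Φ i j) (r4 : R Φ i' j')
    (hi : i = 0 ∨ i = 1) (hi' : i' = 2 ∨ i' = 3) (hj : j = 4 ∨ j = 5) (hj' : j' = 4 ∨ j' = 5) (ψ : MulAut W) :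
    ψ ∈ Φ ↔ ∃ σ, PA σ ψ := by
  let L : Subgroup (Perm (Fin 6)) :=
    { carrier := {σ | ∃ χ ∈ Φ, PA σ χ}
      one_mem' := ⟨1, one_mem _, fun _ _ => rfl⟩
      mul_mem' := by
        rintro a b ⟨χ, h1, h2⟩ ⟨χ', h3, h4⟩
        exact ⟨_, mul_mem h1 h3, fun y i => (h2 _ _).trans (h4 y i)⟩
      inv_mem' := by
        rintro a ⟨χ, h1, h2⟩
        exact ⟨_, inv_mem h1, fun y i => by rw [← h2]; simp⟩ }
  have k1 : ∀ i j, R Φ i j → swap i j ∈ L := fun i j ⟨t, h1, h2⟩ => ⟨t, h1, fun y k => by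
    rw [h2.eq]
    exact (by decide +kernel : ∀ i j y k, has (tf (two i j) (lam i j) y) (swap i j k) = has y k) i j y k⟩
  have tr : ∀ {a b c}, swap a b ∈ L → swap b c ∈ L → swap a c ∈ L := SubmonoidClass.swap_mem_trans L
  have sy : ∀ {a b}, swap a b ∈ L → swap b a ∈ L := fun {a b} h => swap_comm a b ▸ h
  have rf : ∀ a, swap a a ∈ L := fun a => swap_self a ▸ one_mem L
  have k2 : ∀ {a b c d i j}, swap a b ∈ L → swap c d ∈ L → swap i j ∈ L → i = a ∨ i = b → j = c ∨ j = d → swap a c ∈ L := by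
    rintro a b c d i j h1 h2 h3 (rfl | rfl) (rfl | rfl)
    exacts [h3, tr h3 (sy h2), tr h1 h3, tr (tr h1 h3) (sy h2)]
  have k3 := k2 (k1 _ _ r0) (k1 _ _ r2) (k1 _ _ r3) hi hj
  have k4 := k2 (k1 _ _ r1) (k1 _ _ r2) (k1 _ _ r4) hi' hj'
  have k5 : ∀ a, swap a 4 ∈ L := fun a => by
    fin_cases a
    exacts [k3, tr (sy (k1 _ _ r0)) k3, k4, tr (sy (k1 _ _ r1)) k4, rf _, sy (k1 _ _ r2)]
  have k6 : ∀ σ, σ ∈ L := fun σ => Perm.swap_induction_on σ (one_mem L) fun _ a b _ h =>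
    mul_mem (tr (k5 a) (sy (k5 b))) h
  refine ⟨fun hψ => ?_, fun ⟨σ, h⟩ => ?_⟩
  swap
  · obtain ⟨χ, h1, h2⟩ := k6 σ
    rwa [show ψ = χ from MulEquiv.ext fun y => (h.eq y).trans (h2.eq y).symm]
  have k7 : ∀ i j, i ≠ j → R Φ i j := fun i j hij => by
    obtain ⟨χ, h1, h2⟩ := k6 (swap i j)
    obtain ⟨a, b, c, d⟩ := (by decide +kernel : ∀ i j, i ≠ j → two i j ≠ 1 ∧ lam i j ≠ 1 ∧ dot (lam i j) (two i j) = false ∧
      ∀ y, cp (swap i j) y = tf (two i j) (lam i j) y) i j hij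
    exact ⟨χ, h1, a, b, c, fun y => (h2.eq y).trans (d y)⟩
  have k8 : ∀ i j, i ≠ j → Nat.testBit 0x117177e (ψ (two i j)).n = true := fun i j hij => by
    obtain ⟨t, h1, h2⟩ := k7 i j hij
    have h3 := h2.conj ψ
    refine (by decide +kernel : ∀ x l, x ≠ 1 → l ≠ 1 → dot l x = false → (∀ a b, a ≠ b → Cond x l (two a b) (lam a b)) →
      Nat.testBit 0x117177e x.n = true) _ _ h3.x1 h3.l1 h3.lx fun a b hab => ?_
    obtain ⟨u, h4, h5⟩ := k7 a b hab
    exact G.cond (mul_mem (mul_mem hψ h1) (inv_mem hψ)) h4 h3 h5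
  have a1 : ∀ i : Fin 5, Nat.testBit 0x117177e (ψ (e i)).n = true := fun i =>
    e_eq i ▸ k8 _ _ (Fin.castSucc_ne_last i)
  have a2 : ∀ i j : Fin 5, i ≠ j → Nat.testBit 0x117177e (ψ (e i) * ψ (e j)).n = true := fun i j hij => by
    rw [← map_mul, (by decide +kernel : ∀ i j, e i * e j = two i.castSucc j.castSucc)]
    exact k8 _ _ (by simpa using hij)
  obtain ⟨a, b0, e0, b1, e1, b2, e2, b3, e3, b4, e4, hf⟩ := (by decide +kernel :
    ∀ v0 : W, Nat.testBit 0x117177e v0.n = true → ∀ v1 : W, Nat.testBit 0x117177e v1.n = true →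
      Nat.testBit 0x117177e (v0 * v1).n = true → ∀ v2 : W, Nat.testBit 0x117177e v2.n = true →
      Nat.testBit 0x117177e (v0 * v2).n = true → Nat.testBit 0x117177e (v1 * v2).n = true →
      ∀ v3 : W, Nat.testBit 0x117177e v3.n = true → Nat.testBit 0x117177e (v0 * v3).n = true →
      Nat.testBit 0x117177e (v1 * v3).n = true → Nat.testBit 0x117177e (v2 * v3).n = true →
      ∀ v4 : W, Nat.testBit 0x117177e v4.n = true → Nat.testBit 0x117177e (v0 * v4).n = true →
      Nat.testBit 0x117177e (v1 * v4).n = true → Nat.testBit 0x117177e (v2 * v4).n = true →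
      Nat.testBit 0x117177e (v3 * v4).n = true → ∃ a b0, v0 = two b0 a ∧ ∃ b1, v1 = two b1 a ∧ ∃ b2, v2 = two b2 a ∧
        ∃ b3, v3 = two b3 a ∧ ∃ b4, v4 = two b4 a ∧ [b0, b1, b2, b3, b4, a].Nodup)
    _ (a1 0) _ (a1 1) (a2 0 1 (by decide)) _ (a1 2) (a2 0 2 (by decide)) (a2 1 2 (by decide)) _ (a1 3)
    (a2 0 3 (by decide)) (a2 1 3 (by decide)) (a2 2 3 (by decide)) _ (a1 4) (a2 0 4 (by decide)) (a2 1 4 (by decide))
    (a2 2 4 (by decide)) (a2 3 4 (by decide))
  have hf : Function.Injective ![b0, b1, b2, b3, b4, a] := List.nodup_ofFn.1 hf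
  have ek : ∀ k : Fin 5, ψ (e k) = two (![b0, b1, b2, b3, b4, a] k.castSucc) (![b0, b1, b2, b3, b4, a] 5) := fun k => by
    fin_cases k <;> assumption
  refine ⟨Equiv.ofBijective _ (Finite.injective_iff_bijective.1 hf), fun y i => ?_⟩
  refine ind (P := fun y => has (ψ y) (![b0, b1, b2, b3, b4, a] i) = has y i) (by rw [map_one, has_one, has_one])
    (fun a b ha hb => by rw [map_mul, has_mul, has_mul, ha, hb]) (fun k => ?_) y
  rw [ek]
  simp only [e_eq, has_two, hf.eq_iff]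

end CL.O7.Ps
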