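/- S3101, the case `Ω₇(q)`: the model `Ω₇` of the form `∑ xᵢ²`, and the data `Om6` on the centralizer of `t 0`. -/
import Cfsg.Agent.CLAS.OrthSymm
import Cfsg.Agent.CLAS.OrthOmega
import Cfsg.Agent.KSG.OrthMaxTS

set_option autoImplicit false

namespace CL.O7

open Subgroup CL.Orth CL.OrthE QuadraticMap Equiv

section Model

variable (F : Type) [Field F]

abbrev V7 : Type := Fin 7 → F

/-- the sum of seven squares -/
def Q7 : QuadraticForm F (V7 F) := QD fun _ => 1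

abbrev OO : Type := O (Q7 F)

variable {F}

/-- the standard basis -/
def ee (i : Fin 7) : V7 F := Pi.single i 1

/-- the dot product (half of the polar form) -/
def dot (u v : V7 F) : F := ∑ i, u i * v i

theorem Q7_apply (v : V7 F) : Q7 F v = ∑ i, v i ^ 2 := by simp [Q7, QD_apply]

theorem dot_self (v : V7 F) : dot v v = Q7 F v := by simp [dot, Q7_apply, _root_.sq]

theorem dot_comm (u v : V7 F) : dot u v = dot v u := Finset.sum_congr rfl fun _ _ => mul_comm _ _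

theorem polar_Q7 (u v : V7 F) : polar (Q7 F) u v = 2 * dot u v := by
  simp [Q7, polar_QD, dot, Finset.mul_sum, mul_assoc]

theorem ee_apply (i j : Fin 7) : (ee i : V7 F) j = if j = i then 1 else 0 := Pi.single_apply _ _ _

theorem dot_ee (v : V7 F) (i : Fin 7) : dot v (ee i) = v i := by simp [dot, ee_apply]

theorem ee_dot (i : Fin 7) (v : V7 F) : dot (ee i) v = v i := by rw [dot_comm, dot_ee]

theorem Q7_ee (i : Fin 7) : Q7 F (ee i) = 1 := QD_single _ i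

theorem sum_ee (v : V7 F) : ∑ i, v i • (ee i : V7 F) = v := by
  ext j; simp [ee_apply]

theorem finrank_V7 : Module.finrank F (V7 F) = 7 := by simp

theorem nondeg (h2 : (2 : F) ≠ 0) : (polarBilin (Q7 F)).Nondegenerate := QD_nondeg h2 fun _ => one_ne_zero

theorem dot_map (h2 : (2 : F) ≠ 0) (g : OO F) (u v : V7 F) : dot (g.1 u) (g.1 v) = dot u v :=
  mul_left_cancel₀ h2 (by rw [← polar_Q7, ← polar_Q7, O_polar])

theorem ext_ee {g h : OO F} (e : ∀ i, g.1 (ee i) = h.1 (ee i)) : g = h := O_ext fun v => by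
  rw [← sum_ee v]; simp [e]

variable (F) in
/-- permutation matrices -/
def pm : Perm (Fin 7) →* OO F := MonoidHom.mk' (fun σ => ⟨LinearEquiv.funCongrLeft F F σ.symm, fun v => by
  rw [Q7_apply, Q7_apply]; exact σ.symm.sum_comp fun i => v i ^ 2⟩) fun _ _ => rfl

theorem pm_apply (σ : Perm (Fin 7)) (v : V7 F) (i : Fin 7) : (pm F σ).1 v i = v (σ.symm i) := rfl

theorem pm_ee (σ : Perm (Fin 7)) (i : Fin 7) : (pm F σ).1 (ee i) = ee (σ i) := by
  ext j; simp [pm_apply, ee_apply, symm_apply_eq]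

/-- the sign `±1` in the field -/
def sF (F : Type) [Field F] : ℤˣ →* F := (Int.castRingHom F).toMonoidHom.comp (Units.coeHom ℤ)

theorem sF_neg_one : sF F (-1) = -1 := by simp [sF]

theorem sF_mul_self (a : ℤˣ) : sF F a * sF F a = 1 := by rw [← map_mul, Int.units_mul_self, map_one]

theorem sF_ne (a : ℤˣ) : sF F a ≠ 0 := left_ne_zero_of_mul_eq_one (sF_mul_self a)

variable (F) in
/-- diagonal matrices with entries `±1` -/
def di : (Fin 7 → ℤˣ) →* OO F := MonoidHom.mk' (fun ε => ⟨LinearEquiv.ofInvolutive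
    (LinearMap.pi fun i => sF F (ε i) • LinearMap.proj i) fun v => by
      ext i; simp [← mul_assoc, sF_mul_self], fun v => by
    rw [Q7_apply, Q7_apply]
    exact Finset.sum_congr rfl fun i _ => by
      change (sF F (ε i) * v i) ^ 2 = _
      rw [mul_pow, _root_.sq (sF F _), sF_mul_self, one_mul]⟩)
  fun a b => O_ext fun v => funext fun i => by
    change sF F (a i * b i) * v i = sF F (a i) * (sF F (b i) * v i)
    rw [map_mul, mul_assoc]

theorem di_apply (ε : Fin 7 → ℤˣ) (v : V7 F) (i : Fin 7) : (di F ε).1 v i = sF F (ε i) * v i := rfl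

theorem di_ee (ε : Fin 7 → ℤˣ) (i : Fin 7) : (di F ε).1 (ee i) = sF F (ε i) • ee i := by
  ext j; by_cases h : j = i <;> simp [di_apply, ee_apply, h]

/-- multiplication by the determinant -/
def nz : (Fin 7 → ℤˣ) →* (Fin 7 → ℤˣ) := MonoidHom.mk' (fun ε i => (∏ j, ε j) * ε i) fun a b => by
  ext i : 1; simp [Finset.prod_mul_distrib, mul_mul_mul_comm]

theorem nz_apply (ε : Fin 7 → ℤˣ) (i : Fin 7) : nz ε i = (∏ j, ε j) * ε i := rfl

variable (F) in
/-- the group `A`: `dg ε = det(ε) ε` -/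
def dg : (Fin 7 → ℤˣ) →* OO F := (di F).comp nz

variable (F) in
/-- `tau i = - (reflection in ee i)` -/
def tau (i : Fin 7) : OO F := dg F (Pi.mulSingle i (-1))

theorem dg_apply (ε : Fin 7 → ℤˣ) (v : V7 F) (i : Fin 7) : (dg F ε).1 v i = sF F ((∏ j, ε j) * ε i) * v i := rfl

theorem dg_ee (ε : Fin 7 → ℤˣ) (i : Fin 7) : (dg F ε).1 (ee i) = sF F ((∏ j, ε j) * ε i) • ee i := di_ee _ i

theorem tau_apply (i : Fin 7) (v : V7 F) (j : Fin 7) : (tau F i).1 v j = if j = i then v j else -v j := by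
  rw [tau, dg_apply, Finset.prod_pi_mulSingle']
  by_cases h : j = i <;> simp [h, sF_neg_one]

theorem tau_ee (i j : Fin 7) : (tau F i).1 (ee j) = if j = i then ee j else -ee j := by
  ext k
  rw [tau_apply]
  by_cases h : j = i <;> by_cases h' : k = i <;> simp_all [ee_apply, eq_comm]

theorem tau_sq (i : Fin 7) : tau F i * tau F i = 1 := by
  rw [tau, ← map_mul, ← Pi.mulSingle_mul]; simp

theorem dg_comm (a b : Fin 7 → ℤˣ) : Commute (dg F a) (dg F b) := (Commute.all a b).map _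

theorem tau_comm (i j : Fin 7) : Commute (tau F i) (tau F j) := dg_comm _ _

theorem dg_neg (ε : Fin 7 → ℤˣ) : dg F (-ε) = dg F ε := congrArg (di F) (funext fun i => by
  simp [nz_apply, Finset.prod_neg, Odd.neg_one_pow (n := 7) (by decide)])

theorem pm_dg (σ : Perm (Fin 7)) (ε : Fin 7 → ℤˣ) : pm F σ * dg F ε * (pm F σ)⁻¹ = dg F (ε ∘ σ.symm) := by
  rw [mul_inv_eq_iff_eq_mul]
  refine O_ext fun v => funext fun i => ?_
  rw [O_mul_apply, O_mul_apply, pm_apply, dg_apply, dg_apply, pm_apply]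
  simp only [Function.comp_apply]
  rw [σ.symm.prod_comp ε]

theorem pm_tau (σ : Perm (Fin 7)) (i : Fin 7) : pm F σ * tau F i * (pm F σ)⁻¹ = tau F (σ i) := by
  rw [tau, pm_dg, tau]
  exact congrArg _ (funext fun j => by simp [Pi.mulSingle_apply, symm_apply_eq])

theorem tau_eq_refl (i : Fin 7) (v : V7 F) : (tau F i).1 v = -(Orth.refl (Q7 F) (ee i)).1 v := by
  ext j
  rw [tau_apply, Orth.refl_apply, Q7_ee, polar_Q7, ee_dot]
  by_cases h : j = i <;> simp [h, ee_apply]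
  ring

variable (F)

/-- `Ω₇` -/
abbrev Om : Subgroup (OO F) := commutator (OO F)

/-- the span of the `ee i`, `i ∉ S` -/
def VS (S : Finset (Fin 7)) : Submodule F (V7 F) where
  carrier := {v | ∀ i ∈ S, v i = 0}
  zero_mem' := fun _ _ => rfl
  add_mem' := fun h h' i hi => by rw [Pi.add_apply, h i hi, h' i hi, add_zero]
  smul_mem' := fun c _ h i hi => by rw [Pi.smul_apply, h i hi, smul_zero]

/-- `Ω(VS S)`, inside `Ω₇` -/
def XS (S : Finset (Fin 7)) : Subgroup (OO F) where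
  carrier := {g | g ∈ Om F ∧ ∀ i ∈ S, g.1 (ee i) = ee i}
  one_mem' := ⟨one_mem _, fun _ _ => rfl⟩
  mul_mem' := fun h h' => ⟨mul_mem h.1 h'.1, fun i hi => by rw [O_mul_apply, h'.2 i hi, h.2 i hi]⟩
  inv_mem' := fun {g} h => ⟨inv_mem h.1, fun i hi => by
    conv_lhs => rw [← h.2 i hi]
    rw [O_inv_apply]⟩

/-- the stabiliser of the line of `ee 0` in `Ω₇` -/
def HH : Subgroup (OO F) where
  carrier := {g | g ∈ Om F ∧ (g.1 (ee 0) = ee 0 ∨ g.1 (ee 0) = -ee 0)}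
  one_mem' := ⟨one_mem _, .inl rfl⟩
  mul_mem' := fun h h' => ⟨mul_mem h.1 h'.1, by
    rcases h.2 with e | e <;> rcases h'.2 with e' | e' <;> simp [e, e']⟩
  inv_mem' := fun {g} h => ⟨inv_mem h.1, h.2.imp (fun e => by
    conv_lhs => rw [← e]
    rw [O_inv_apply]) fun e => by
    conv_lhs => rw [← neg_neg (ee 0), ← e]
    rw [map_neg, O_inv_apply]⟩

variable {F}

theorem mem_VS {S : Finset (Fin 7)} {v : V7 F} : v ∈ VS F S ↔ ∀ i ∈ S, v i = 0 := Iff.rfl

theorem mem_XS {S : Finset (Fin 7)} {g : OO F} : g ∈ XS F S ↔ g ∈ Om F ∧ ∀ i ∈ S, g.1 (ee i) = ee i := Iff.rfl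

theorem mem_HH {g : OO F} : g ∈ HH F ↔ g ∈ Om F ∧ (g.1 (ee 0) = ee 0 ∨ g.1 (ee 0) = -ee 0) := Iff.rfl

theorem ee_mem_VS {S : Finset (Fin 7)} {i : Fin 7} (h : i ∉ S) : ee i ∈ VS F S := fun j hj => by
  rw [ee_apply, if_neg (by rintro rfl; exact h hj)]

theorem XS_anti {S S' : Finset (Fin 7)} (h : S ⊆ S') : XS F S' ≤ XS F S := fun _ hg => ⟨hg.1, fun i hi => hg.2 i (h hi)⟩

theorem XS_le_HH {S : Finset (Fin 7)} (h : 0 ∈ S) : XS F S ≤ HH F := fun _ hg => ⟨hg.1, .inl (hg.2 0 h)⟩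

theorem mem_X0 {g : OO F} : g ∈ XS F {0} ↔ g ∈ Om F ∧ g.1 (ee 0) = ee 0 := by simp [mem_XS]

theorem XS_map (h2 : (2 : F) ≠ 0) {S : Finset (Fin 7)} {g : OO F} (hg : g ∈ XS F S) {v : V7 F} (hv : v ∈ VS F S) :
    g.1 v ∈ VS F S := fun i hi => by rw [← dot_ee (g.1 v), ← hg.2 i hi, dot_map h2, dot_ee, hv i hi]

theorem pm_mem_Om {σ : Perm (Fin 7)} (h : Perm.sign σ = 1) : pm F σ ∈ Om F :=
  map_mem_commutator _ (by rw [alternatingGroup.commutator_perm_eq (by simp)]; exact h)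

theorem pm_mem_XS {S : Finset (Fin 7)} {σ : Perm (Fin 7)} (h : Perm.sign σ = 1) (hS : ∀ i ∈ S, σ i = i) :
    pm F σ ∈ XS F S := ⟨pm_mem_Om h, fun i hi => by rw [pm_ee, hS i hi]⟩

theorem tau_tau_mem_Om (i j : Fin 7) : tau F i * tau F j ∈ Om F := by
  have := commutator_mem_commutator (mem_top (pm F (swap i j))) (mem_top (tau F j))
  rwa [commutatorElement_def, pm_tau, swap_apply_right, inv_eq_of_mul_eq_one_right (tau_sq j)] at this

theorem prod_tau : tau F 0 = tau F 1 * tau F 2 * (tau F 3 * tau F 4) * (tau F 5 * tau F 6) := by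
  simp only [tau, ← map_mul]
  rw [← dg_neg]
  exact congrArg _ (by decide)

theorem tau_mem_Om (i : Fin 7) : tau F i ∈ Om F := by
  have h0 : tau F 0 ∈ Om F := prod_tau (F := F) ▸
    mul_mem (mul_mem (tau_tau_mem_Om _ _) (tau_tau_mem_Om _ _)) (tau_tau_mem_Om _ _)
  exact (mul_mem_cancel_left h0).1 (tau_tau_mem_Om 0 i)

theorem dg_mem_Om (ε : Fin 7 → ℤˣ) : dg F ε ∈ Om F := by
  rw [← Finset.univ_prod_mulSingle ε]
  refine Finset.prod_induction (p := fun a => dg F a ∈ Om F) _ (fun a b h h' => map_mul (dg F) a b ▸ mul_mem h h')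
    (map_one (dg F) ▸ one_mem _) fun i _ => ?_
  rcases Int.units_eq_one_or (ε i) with e | e <;> rw [e]
  exacts [by simp, tau_mem_Om i]

theorem dg_mem_HH (ε : Fin 7 → ℤˣ) : dg F ε ∈ HH F := ⟨dg_mem_Om ε, by
  rw [dg_ee]
  rcases Int.units_eq_one_or ((∏ j, ε j) * ε 0) with e | e <;> simp [e, sF_neg_one]⟩

theorem tau_mem_HH (i : Fin 7) : tau F i ∈ HH F := dg_mem_HH _

theorem tau0_mem : tau F 0 ∈ XS F {0} := mem_X0.2 ⟨tau_mem_Om 0, by simp [tau_ee]⟩

theorem tau_tau_mem {S : Finset (Fin 7)} {i j : Fin 7} (hi : i ∉ S) (hj : j ∉ S) : tau F i * tau F j ∈ XS F S :=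
  ⟨tau_tau_mem_Om i j, fun k hk => by
    have h1 : k ≠ i := by rintro rfl; exact hi hk
    have h2 : k ≠ j := by rintro rfl; exact hj hk
    simp [tau_ee, h1, h2]⟩

/-- monomial matrices that preserve `S` normalize `XS S` -/
theorem conj_mem_XS {S : Finset (Fin 7)} {u x : OO F} (hu : ∀ i ∈ S, ∃ j ∈ S, ∃ c : F, u.1 (c • ee j) = ee i)
    (hx : x ∈ XS F S) : u * x * u⁻¹ ∈ XS F S := ⟨Normal.conj_mem inferInstance _ hx.1 u, fun i hi => by
  obtain ⟨j, hj, c, e⟩ := hu i hi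
  rw [O_mul_apply, O_mul_apply, ← e, O_inv_apply, map_smul, hx.2 j hj]⟩

theorem HH_conj {u x : OO F} (hu : u ∈ HH F) (hx : x ∈ XS F {0}) : u * x * u⁻¹ ∈ XS F {0} :=
  conj_mem_XS (fun i hi => by
    rw [Finset.mem_singleton.1 hi]
    rcases hu.2 with e | e
    exacts [⟨0, by simp, 1, by simp [e]⟩, ⟨0, by simp, -1, by simp [e]⟩]) hx

/-- `s` is a semisimilarity of `VS S` with multiplier `m`, extended by `s (ee i) = ee i` for `i ∈ S` -/
structure Sm (S : Finset (Fin 7)) (σ : F ≃+* F) (s : V7 F ≃+ V7 F) (m : F) : Prop where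
  m0 : m ≠ 0
  smul : ∀ c v, s (c • v) = σ c • s v
  fix : ∀ i ∈ S, s (ee i) = ee i
  mem : ∀ v ∈ VS F S, s v ∈ VS F S
  q : ∀ v ∈ VS F S, Q7 F (s v) = m * σ (Q7 F v)

/-- `y = s x s⁻¹` -/
def Cj (s : V7 F ≃+ V7 F) (x y : OO F) : Prop := ∀ v, y.1 (s v) = s (x.1 v)

theorem two_ne [Fintype F] (h : Fintype.card F % 8 = 3 ∨ Fintype.card F % 8 = 5) : (2 : F) ≠ 0 :=
  two_ne_zero_of_odd_card (Nat.odd_iff.2 (by omega))

end Model

variable {F : Type} [Field F] [Fintype F] {G : Type*} [Group G]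

/-- `g` permutes the `t i` like `σ` -/
def Ind (t : Fin 7 → G) (g : G) (σ : Perm (Fin 7)) : Prop := ∀ i, g * t i * g⁻¹ = t (σ i)

/-- `φ` embeds the stabiliser `HH` of a non-singular point in `Ω₇(q)` into `C(t 0)`, with odd index; the image `K` of
`Ω₆ = XS {0}` is normal in `C(t 0)` and `C(K) = ⟨t 0⟩`. -/
structure Om6 (t : Fin 7 → G) (φ : OO F → G) : Prop where
  q8 : Fintype.card F % 8 = 3 ∨ Fintype.card F % 8 = 5
  mul : ∀ x ∈ HH F, ∀ y ∈ HH F, φ (x * y) = φ x * φ y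
  inj : ∀ x ∈ HH F, φ x = 1 → x = 1
  tau : ∀ i, φ (tau F i) = t i
  nrm : ∀ g, Commute g (t 0) → ∀ x ∈ XS F {0}, ∃ y ∈ XS F {0}, g * φ x * g⁻¹ = φ y
  cen : ∀ g, (∀ x ∈ XS F {0}, Commute g (φ x)) → g = 1 ∨ g = t 0
  idx : ¬ 4 ∣ (closure (φ '' XS F {0})).relIndex (centralizer {t 0})
  nc : ¬ IsConj (t 1) (t 1 * t 0)

namespace Om6

variable {t : Fin 7 → G} {φ : OO F → G} (h : Om6 t φ)

/-- `φ` as a homomorphism -/
def hom : HH F →* G := MonoidHom.mk' (fun x => φ x) fun x y => h.mul x x.2 y y.2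

/-- the image of a subgroup of `HH` -/
def im (P : Subgroup (OO F)) : Subgroup G := (P.subgroupOf (HH F)).map h.hom

theorem mem_im {P : Subgroup (OO F)} (hP : P ≤ HH F) {g : G} : g ∈ h.im P ↔ ∃ x ∈ P, φ x = g :=
  ⟨fun ⟨x, h1, h2⟩ => ⟨x, h1, h2⟩, fun ⟨x, h1, h2⟩ => ⟨⟨x, hP h1⟩, h1, h2⟩⟩

include h

theorem two : (2 : F) ≠ 0 := two_ne h.q8

theorem one : φ 1 = 1 := h.hom.map_one

theorem inv {x : OO F} (hx : x ∈ HH F) : φ x⁻¹ = (φ x)⁻¹ := h.hom.map_inv ⟨x, hx⟩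

theorem pow {x : OO F} (hx : x ∈ HH F) (n : ℕ) : φ (x ^ n) = φ x ^ n := h.hom.map_pow ⟨x, hx⟩ n

theorem conj {x y : OO F} (hx : x ∈ HH F) (hy : y ∈ HH F) : φ (x * y * x⁻¹) = φ x * φ y * (φ x)⁻¹ := by
  rw [h.mul _ (mul_mem hx hy) _ (inv_mem hx), h.mul _ hx _ hy, h.inv hx]

theorem inj' {x y : OO F} (hx : x ∈ HH F) (hy : y ∈ HH F) (e : φ x = φ y) : x = y :=
  mul_inv_eq_one.1 (h.inj _ (mul_mem hx (inv_mem hy)) (by rw [h.mul _ hx _ (inv_mem hy), h.inv hy, e, mul_inv_cancel]))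

theorem hom_inj : Function.Injective h.hom := fun x y e => Subtype.ext (h.inj' x.2 y.2 e)

theorem comm {x y : OO F} (hx : x ∈ HH F) (hy : y ∈ HH F) : Commute (φ x) (φ y) ↔ Commute x y :=
  ⟨fun e => h.inj' (mul_mem hx hy) (mul_mem hy hx) (by rw [h.mul _ hx _ hy, h.mul _ hy _ hx, e.eq]),
    fun e => by change _ = _; rw [← h.mul _ hx _ hy, ← h.mul _ hy _ hx, e.eq]⟩

theorem t_sq (i : Fin 7) : t i * t i = 1 := by
  rw [← h.tau, ← h.mul _ (tau_mem_HH i) _ (tau_mem_HH i), tau_sq, h.one]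

theorem t_comm (i j : Fin 7) : Commute (t i) (t j) := by
  rw [← h.tau, ← h.tau]; exact (h.comm (tau_mem_HH i) (tau_mem_HH j)).2 (tau_comm i j)

theorem tt (i j : Fin 7) : φ (O7.tau F i * O7.tau F j) = t i * t j := by
  rw [h.mul _ (tau_mem_HH i) _ (tau_mem_HH j), h.tau, h.tau]

theorem ind_pm {σ : Perm (Fin 7)} (h1 : Perm.sign σ = 1) (h0 : σ 0 = 0) : Ind t (φ (pm F σ)) σ := fun i => by
  rw [← h.tau, ← h.conj (XS_le_HH (S := {0}) (by simp) (pm_mem_XS h1 (by simpa using h0))) (tau_mem_HH i), pm_tau, h.tau]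

theorem closure_eq : closure (φ '' XS F {0}) = h.im (XS F {0}) :=
  le_antisymm ((closure_le _).2 fun _ hx => (h.mem_im (XS_le_HH (by simp))).2 hx)
    fun _ hx => subset_closure ((h.mem_im (XS_le_HH (by simp))).1 hx)

end Om6

end CL.O7
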