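/- S3101, the case `Ω₇(q)`: the groups `XS S` as orthogonal groups; their automorphisms. -/
import Cfsg.Agent.INV.O7.RDef
import Cfsg.Agent.CLAS.AutForm6
import Cfsg.Agent.CLAS.OrthPOrder
import Cfsg.Agent.KSG.OrthCore
import Cfsg.Agent.KSG.OrthClassify

set_option autoImplicit false
set_option maxHeartbeats 200000

namespace CL.O7

open Subgroup CL.Orth CL.OrthE QuadraticMap Equiv Module

section General

variable {F V : Type*} [Field F] [Finite F] [AddCommGroup V] [Module F V] [FiniteDimensional F V] {Q : QuadraticForm F V}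

namespace RAut

open CL.Witt CL.Witt.Form CL.AutForm

open scoped commutatorElement in
theorem comm_congr {H : Type*} [Group H] {a b a' b' : H} (ha : (a : H ⧸ center H) = a') (hb : (b : H ⧸ center H) = b') :
    ⁅a, b⁆ = ⁅a', b'⁆ := by
  obtain ⟨⟨z, hz⟩, rfl⟩ := (⟨⟨a⁻¹ * a', QuotientGroup.eq.1 ha⟩, by simp⟩ : ∃ z : center H, a' = a * z)
  obtain ⟨⟨w, hw⟩, rfl⟩ := (⟨⟨b⁻¹ * b', QuotientGroup.eq.1 hb⟩, by simp⟩ : ∃ z : center H, b' = b * z)
  have h1 := mem_center_iff.1 hz
  have h2 := mem_center_iff.1 hw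
  simp only [commutatorElement_def, mul_inv_rev]
  calc a * b * a⁻¹ * b⁻¹ = a * (b * (z * z⁻¹) * a⁻¹ * (w * w⁻¹)) * b⁻¹ := by group
    _ = a * ((b * z) * ((z⁻¹ * a⁻¹) * w) * w⁻¹) * b⁻¹ := by group
    _ = _ := by rw [h1 b, h2]; group

omit [Finite F] [FiniteDimensional F V] in
theorem O_eq : (ofQuad Q).O = O Q := Subgroup.ext fun g => quad_isIsom_iff (ofQuad Q) (ofQuad Q) (g : V →ₗ[F] V)

theorem card_RX_le (hQ : (polarBilin Q).Nondegenerate) {X : Submodule F V} (h1 : (ofQuad Q).TotSing X)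
    (h2 : (ofQuad Q).perp X = X) (h3 : finrank F X = 3) (h6 : finrank F V = 6) :
    Nat.card (RX (ofQuad Q) X) ≤ Nat.card F ^ 3 := by
  obtain ⟨Y, hY⟩ := X.exists_isCompl
  have hd := Submodule.finrank_add_eq_of_isCompl hY
  let b := finBasisOfFinrankEq F Y (n := 3) (by omega)
  have hX : ∀ g ∈ RX (ofQuad Q) X, ∀ v, g v - v ∈ X := fun g hg v =>
    h2 ▸ sub_mem_perp_of_fix (E_le_O hg.1) hg.2.1 v
  have hB : ∀ g ∈ RX (ofQuad Q) X, ∀ v, polar Q v (g v) = polar Q v v := fun g hg v => by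
    have e := Q_add Q v (g v - v)
    have e1 : Q (g v) = Q v := mem_O_q (E_le_O hg.1) v
    have e2 : Q (g v - v) = 0 := h1.1 _ (hX g hg v)
    rw [add_sub_cancel, e1, e2, polar_sub_right] at e
    linear_combination -e
  rw [show Nat.card F ^ 3 = Nat.card (F × F × F) by simp [pow_succ, mul_assoc]]
  refine Nat.card_le_card_of_injective (fun g : RX (ofQuad Q) X =>
    (polar Q (b 0 : V) (g.1 (b 1)), polar Q (b 0 : V) (g.1 (b 2)), polar Q (b 1 : V) (g.1 (b 2)))) fun g h e => ?_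
  simp only [Prod.mk.injEq] at e
  let D : V →ₗ[F] V := g.1.toLinearMap - h.1.toLinearMap
  have hD : ∀ v, D v = g.1 v - h.1 v := fun _ => rfl
  have d0 : ∀ v, polar Q v (D v) = 0 := fun v => by rw [hD, polar_sub_right, hB _ g.2, hB _ h.2, sub_self]
  have d1 : ∀ v w, polar Q v (D w) = 0 → polar Q w (D v) = 0 := fun v w e => by
    have := d0 (v + w)
    rwa [map_add, polar_add_left, polar_add_right, polar_add_right, d0, d0, e, add_zero, zero_add, add_zero] at this
  have d2 : ∀ v, D v ∈ X := fun v => by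
    simpa [hD] using X.sub_mem (hX _ g.2 v) (hX _ h.2 v)
  have e1 : polar Q (b 0 : V) (D (b 1)) = 0 := by rw [hD, polar_sub_right, e.1, sub_self]
  have e2 : polar Q (b 0 : V) (D (b 2)) = 0 := by rw [hD, polar_sub_right, e.2.1, sub_self]
  have e3 : polar Q (b 1 : V) (D (b 2)) = 0 := by rw [hD, polar_sub_right, e.2.2, sub_self]
  have d3 : ∀ i j, polar Q (b i : V) (D (b j)) = 0 := fun i j => by
    fin_cases i <;> fin_cases j
    exacts [d0 _, e1, e2, d1 _ _ e1, d0 _, e3, d1 _ _ e2, d1 _ _ e3, d0 _]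
  have d4 : ∀ j, D (b j) = 0 := fun j => eq_zero_of_polar hQ fun v => by
    obtain ⟨x, hx, y, hy, rfl⟩ := Submodule.mem_sup.1 (hY.sup_eq_top ▸ Submodule.mem_top (x := v))
    have e4 : ((polarBilin Q).flip (D (b j))).comp Y.subtype = 0 := b.ext fun i => d3 i j
    have e5 : polar Q y (D (b j)) = 0 := LinearMap.congr_fun e4 ⟨y, hy⟩
    have e6 : polar Q (D (b j)) x = 0 := h1.2 _ (d2 _) x hx
    rw [polar_add_right, e6, polar_comm, e5, add_zero]
  have d5 : D.comp Y.subtype = 0 := b.ext d4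
  refine Subtype.ext (LinearEquiv.ext fun v => sub_eq_zero.1 ?_)
  obtain ⟨x, hx, y, hy, rfl⟩ := Submodule.mem_sup.1 (hY.sup_eq_top ▸ Submodule.mem_top (x := v))
  have e5 : D y = 0 := LinearMap.congr_fun d5 ⟨y, hy⟩
  rw [← hD, map_add, e5, hD, g.2.2.1 x hx, h.2.2.1 x hx, sub_self, add_zero]

theorem exists_pt6 (hQ : (polarBilin Q).Nondegenerate) (hf : Good (ofQuad Q)) (h5 : 5 ≤ finrank F V) (h7 : finrank F V ≤ 7)
    (c : AutCorr.Corr (ofQuad Q).E (ZE (ofQuad Q)) (ofQuad Q).E (ZE (ofQuad Q))) {u : V} (hu : (ofQuad Q).q u = 0) (hu0 : u ≠ 0) :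
    ∃ y, Pt c u y := by
  rcases dichotomy hf hf c le_rfl hu hu0 with ⟨y, h1, h2, h3⟩ | ⟨X, h1, h2, h3, h4⟩
  · exact ⟨y, hu0, hu, h1, h2, h3⟩
  · obtain ⟨-, h6, -⟩ := exceptional hf hf.nondeg hu hu0 h1 h2 h4
    obtain ⟨p, hp⟩ := CharP.exists F
    have : Fact p.Prime := ⟨CharP.char_is_prime F p⟩
    obtain ⟨v, hv⟩ := hf.exists_hyp hu hu0
    have e := card_RX_le hQ h1 h2 (by omega) (by omega)
    rw [← h4.card_eq (setup _ p) (setup _ p) (U_isPGroup hf.nondeg p hu) (RX_isPGroup hf.nondeg p h1), hv.card_U, card_eq_pow,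
      show finrank F (Wp (ofQuad Q) u v) = 4 by have := hv.finrank_Wp; omega,
      show (FormType.quad F).π.ker = ⊥ from eq_bot_iff.2 fun _ h => h, AddSubgroup.card_bot, one_mul,
      Nat.pow_le_pow_iff_right Finite.one_lt_card] at e
    omega

omit [Finite F] [FiniteDimensional F V] in
theorem O_smul {c : F} (hc : c ≠ 0) : O (c • Q) = O Q :=
  Subgroup.ext fun _ => forall_congr' fun _ => mul_right_inj' hc

theorem center_bot (hQ : (polarBilin Q).Nondegenerate) (h5 : 5 ≤ finrank F V) (h2 : (2 : F) ≠ 0) (hd : Odd (finrank F V)) :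
    center (commutator (O Q)) = ⊥ :=
  card_eq_one.1 (card_center_commutator_eq_one hQ h5 (.inr fun h =>
    Nat.not_even_iff_odd.2 hd ((negOne_mem_commutator_iff h2 hQ).1 h).1))

/-- `Ω ≃ PΩ` in odd dimension -/
noncomputable def quotEquiv (hQ : (polarBilin Q).Nondegenerate) (h5 : 5 ≤ finrank F V) (h2 : (2 : F) ≠ 0)
    (hd : Odd (finrank F V)) : pOm (O Q) ≃* commutator (O Q) :=
  (QuotientGroup.quotientMulEquivOfEq (center_bot hQ h5 h2 hd)).trans QuotientGroup.quotientBot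

end RAut

open RAut

/-- Automorphisms of `Ω₅`, `Ω₆`, `Ω₇` are induced by semisimilarities. -/
theorem exists_semi (hQ : (polarBilin Q).Nondegenerate) (h5 : 5 ≤ finrank F V) (h7 : finrank F V ≤ 7)
    (β : commutator (O Q) ≃* commutator (O Q)) : ∃ (σ : F ≃+* F) (s : V ≃+ V) (m : F), m ≠ 0 ∧
      (∀ c v, s (c • v) = σ c • s v) ∧ (∀ v, Q (s v) = m * σ (Q v)) ∧ ∀ x v, (β x).1.1 (s v) = s (x.1.1 v) := by
  have hn := (Witt.Form.ofQuad_nondeg_iff Q).2 hQ
  have hf := AutForm.good_quad hn h5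
  let j : commutator (O Q) →* (V ≃ₗ[F] V) := (O Q).subtype.comp (commutator _).subtype
  have hj : Function.Injective j := fun a b e => Subtype.ext (Subtype.ext e)
  have hr : j.range = (Witt.Form.ofQuad Q).E := by
    rw [← ((Witt.Form.quad_iso3 _).idx2 hn h5).commutator_O hn h5, O_eq, MonoidHom.range_comp, range_subtype, commutator_def,
      map_commutator, ← MonoidHom.range_eq_map, range_subtype]
  obtain ⟨u, hu0, hu⟩ := hf.sing
  obtain ⟨y, hy⟩ := exists_pt6 hQ hf h5 h7 (AutForm.corr hf hf hj hr hj hr (centerQuotCongr β)) hu hu0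
  obtain ⟨τ, s, m, hs, hR⟩ := AutForm.exists_isSemi hf hf hy
  let α := (AutForm.semiConj τ s hs.smul).toMonoidHom.comp j
  have key : ∀ x, ∃ y, j y = α x ∧ (β x : pOm (O Q)) = y := fun x => by
    have h1 : j x ∈ (Witt.Form.ofQuad Q).E := hr ▸ ⟨x, rfl⟩
    obtain ⟨y, e⟩ : α x ∈ j.range := hr ▸ hs.conj_mem_E hf.std h1
    exact ⟨y, e, (AutForm.corr_R_iff hf hf hj hr hj hr _ x y).1 (hR _ h1 _ fun v => e ▸ AutForm.semiConj_apply hs.smul _ v)⟩
  have hp : commutator (commutator (O Q)) = ⊤ := by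
    refine map_injective (subtype_injective _) ?_
    rw [map_commutator_eq, ← MonoidHom.range_eq_map, range_subtype, commutator_O_eq_E hQ h5, commutator_E hQ h5]
  have hle : commutator (commutator (O Q)) ≤ (j.comp β.toMonoidHom).eqLocus α := commutator_le.2 fun a _ b _ => by
    obtain ⟨a', e1, e2⟩ := key a
    obtain ⟨b', e3, e4⟩ := key b
    change j (β _) = α _
    rw [map_commutatorElement β, comm_congr e2 e4, map_commutatorElement, map_commutatorElement, e1, e3]
  refine ⟨τ, s, m, hs.ne, hs.smul, hs.q_eq, fun x v => ?_⟩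
  have e : j (β x) = α x := hle (hp ▸ mem_top x)
  change j (β x) (s v) = _
  exact e ▸ AutForm.semiConj_apply hs.smul _ v

end General

variable {F : Type} [Field F] [Fintype F] (h2 : (2 : F) ≠ 0)
include h2

namespace RAut

omit [Fintype F] in
theorem perp_VS {S : Finset (Fin 7)} {y : V7 F} (hy : y ∈ perp (Q7 F) (VS F S)) {i : Fin 7} (hi : i ∉ S) : y i = 0 := by
  have := mem_perp.1 hy _ (ee_mem_VS hi)
  rwa [polar_Q7, ee_dot, mul_eq_zero, or_iff_right h2] at this

omit [Fintype F] in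
theorem VS_inf (S : Finset (Fin 7)) : VS F S ⊓ perp (Q7 F) (VS F S) = ⊥ := eq_bot_iff.2 fun y hy => funext fun i => by
  by_cases hi : i ∈ S
  exacts [hy.1 i hi, perp_VS h2 hy.2 hi]

end RAut

open RAut

/-- Restriction to `VS S`, transported along a similarity `e`. -/
theorem exists_res {S : Finset (Fin 7)} {V : Type*} [AddCommGroup V] [Module F V] {Q : QuadraticForm F V} {c : F}
    (hc : c ≠ 0) (e : VS F S ≃ₗ[F] V) (he : ∀ v, Q (e v) = c * Q7 F v) :
    ∃ ρ : XS F S ≃* commutator (O Q), ∀ (x : XS F S) (v w : VS F S), (w : V7 F) = x.1.1 v → (ρ x).1.1 (e v) = e w := by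
  have h0 := VS_inf h2 S
  have hC := isCompl_perp h0
  have hn := restrict_nondeg_iff.2 h0
  have hF := card_ne_two_of_two_ne_zero h2
  have hp : ∀ i ∈ S, ee i ∈ perp (Q7 F) (VS F S) := fun i hi => mem_perp.2 fun w hw => by
    rw [polar_Q7, dot_ee, hw i hi, mul_zero]
  have hm : ∀ g, glue hC (g, 1) ∈ Om F ↔ g ∈ commutator _ := fun g => by
    rw [mem_commutator_iff (nondeg h2) (.inl hF), mem_commutator_iff hn (.inl hF), dsign_glue, spin_glue (nondeg h2), dsign_one,
      spin_one, mul_one, mul_one]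
  let γ : commutator (O ((Q7 F).restrict (VS F S))) →* XS F S :=
    (((glue hC).comp (MonoidHom.inl _ _)).comp (commutator _).subtype).codRestrict _ fun g =>
      ⟨(hm g).2 g.2, fun i hi => glue_apply_right hC g.1 1 ⟨_, hp i hi⟩⟩
  have hγ : ∀ g (v : VS F S), (γ g).1.1 v = g.1.1 v := fun g v => glue_apply_left hC g.1 1 v
  have hb : Function.Bijective γ := by
    refine ⟨fun a b e => Subtype.ext (O_ext fun v => Subtype.ext (by rw [← hγ, ← hγ, e])), fun x => ?_⟩
    have e1 := eq_glue_restrict x.1 hC fun w hw => XS_map h2 x.2 hw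
    have e2 : (restrictO x.1 fun _ hx => map_mem_perp x.1 (fun w hw => XS_map h2 x.2 hw) hx) = 1 := O_ext fun y => Subtype.ext <| by
      change x.1.1 y = y
      conv_lhs => rw [← sum_ee y.1]
      conv_rhs => rw [← sum_ee y.1]
      rw [map_sum]
      refine Finset.sum_congr rfl fun i _ => ?_
      by_cases hi : i ∈ S
      · rw [map_smul, x.2.2 i hi]
      · rw [perp_VS h2 y.2 hi, zero_smul, map_zero]
    rw [e2] at e1
    exact ⟨⟨_, (hm _).1 (e1 ▸ x.2.1)⟩, Subtype.ext e1.symm⟩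
  refine ⟨(MulEquiv.ofBijective γ hb).symm.trans (commutatorCongr ((MulEquiv.subgroupCongr (O_smul hc).symm).trans
    (congrO (Q := c • (Q7 F).restrict (VS F S)) e he))), fun x v w hw => ?_⟩
  obtain ⟨g, rfl⟩ := (MulEquiv.ofBijective γ hb).surjective x
  rw [MulEquiv.trans_apply, MulEquiv.symm_apply_apply]
  change e (g.1.1 (e.symm (e v))) = _
  rw [e.symm_apply_apply]
  exact congrArg e (Subtype.ext ((hγ g v).symm.trans hw.symm))

theorem nondeg_VS (S : Finset (Fin 7)) : (polarBilin ((Q7 F).restrict (VS F S))).Nondegenerate := by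
  exact restrict_nondeg_iff.2 (VS_inf h2 S)

omit h2 [Fintype F] in
theorem finrank_VS (S : Finset (Fin 7)) : finrank F (VS F S) + S.card = 7 := by
  let π : V7 F →ₗ[F] (S → F) := LinearMap.pi fun i => LinearMap.proj i.1
  have h1 : LinearMap.ker π = VS F S := Submodule.ext fun v => by
    simp [π, mem_VS, funext_iff]
  have h3 : LinearMap.range π = ⊤ := LinearMap.range_eq_top.2 (LinearMap.funLeft_surjective_of_injective F F _ Subtype.val_injective)
  have := π.finrank_range_add_finrank_ker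
  rw [h1, h3, finrank_top, finrank_V7, finrank_fintype_fun_eq_card, Fintype.card_coe] at this
  omega

theorem exists_sm {S : Finset (Fin 7)} (hS : S.card ≤ 2) (β : XS F S ≃* XS F S) :
    ∃ σ s m, Sm S σ s m ∧ ∀ x : XS F S, Cj s x.1 (β x).1 := by
  have hd := finrank_VS (F := F) S
  obtain ⟨ρ, hρ⟩ := exists_res h2 (Q := (Q7 F).restrict (VS F S)) one_ne_zero (LinearEquiv.refl F (VS F S)) fun v => (one_mul _).symm
  obtain ⟨σ, s₀, m, m0, h1, h3, h4⟩ := exists_semi (nondeg_VS h2 S) (by omega) (by omega) ((ρ.symm.trans β).trans ρ)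
  have hρ' : ∀ (x : XS F S) (v : VS F S), ((ρ x).1.1 v : V7 F) = x.1.1 v := fun x v =>
    congrArg Subtype.val (hρ x v ⟨_, XS_map h2 x.2 v.2⟩ rfl)
  let p : V7 F →ₗ[F] VS F S := LinearMap.codRestrict _ (LinearMap.pi fun i => if i ∈ S then 0 else LinearMap.proj i)
    fun v i hi => by simp [hi]
  have hp : ∀ v i, (p v).1 i = if i ∈ S then 0 else v i := fun v i => by
    change (if i ∈ S then (0 : V7 F →ₗ[F] F) else LinearMap.proj i) v = _
    split_ifs <;> rfl
  have hp1 : ∀ v : VS F S, p v = v := fun v => Subtype.ext (funext fun i => by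
    rw [hp]; split_ifs with hi; exacts [(v.2 i hi).symm, rfl])
  let T : (F ≃+* F) → (VS F S ≃+ VS F S) → V7 F → V7 F := fun σ s v i => if i ∈ S then σ (v i) else (s (p v)).1 i
  have hT : ∀ σ s v, p (T σ s v) = s (p v) := fun σ s v => Subtype.ext (funext fun i => by
    rw [hp]; split_ifs with hi; exacts [((s (p v)).2 i hi).symm, if_neg hi])
  have hT' : ∀ (σ : F ≃+* F) (s : VS F S ≃+ VS F S) v, T σ.symm s.symm (T σ s v) = v := fun σ s v => funext fun i => by
    by_cases hi : i ∈ S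
    · simp [T, hi]
    · change (if i ∈ S then _ else (s.symm (p (T σ s v))).1 i) = _
      rw [if_neg hi, hT, s.symm_apply_apply, hp, if_neg hi]
  let s : V7 F ≃+ V7 F := ⟨⟨T σ s₀, T σ.symm s₀.symm, hT' σ s₀, hT' σ.symm s₀.symm⟩, fun u v => funext fun i => by
    by_cases hi : i ∈ S <;> simp [T, hi]⟩
  have hs : ∀ v i, s v i = if i ∈ S then σ (v i) else (s₀ (p v)).1 i := fun _ _ => rfl
  have hs0 : ∀ v : VS F S, s v = s₀ v := fun v => funext fun i => by
    rw [hs, hp1]; split_ifs with hi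
    exacts [by rw [v.2 i hi, map_zero, (s₀ v).2 i hi], rfl]
  have hsm : ∀ c v, s (c • v) = σ c • s v := fun c v => funext fun i => by
    by_cases hi : i ∈ S <;> simp [hs, hi, h1]
  have hfix : ∀ i ∈ S, s (ee i) = ee i := fun i hi => funext fun k => by
    have : p (ee i) = 0 := Subtype.ext (funext fun l => by
      rw [hp, ee_apply]; split_ifs with h h' <;> first | rfl | exact absurd (h' ▸ hi) h)
    rw [hs, this, map_zero, ee_apply]
    split_ifs with h h' h'
    exacts [map_one σ, map_zero σ, absurd (h' ▸ hi) h, rfl]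
  refine ⟨σ, s, m, ⟨m0, hsm, hfix, fun v hv => hs0 ⟨v, hv⟩ ▸ (s₀ _).2, fun v hv => hs0 ⟨v, hv⟩ ▸ h3 ⟨v, hv⟩⟩, fun x v => ?_⟩
  rw [← sum_ee v]
  simp only [map_sum, map_smul, hsm]
  refine Finset.sum_congr rfl fun i _ => congrArg _ ?_
  by_cases hi : i ∈ S
  · rw [x.2.2 i hi, hfix i hi, (β x).2.2 i hi]
  · have e := congrArg Subtype.val (h4 (ρ x) ⟨_, ee_mem_VS hi⟩)
    rw [MulEquiv.trans_apply, MulEquiv.trans_apply, ρ.symm_apply_apply, hρ', ← hs0, ← hs0, hρ'] at e
    exact e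

theorem simple_XS {S : Finset (Fin 7)} (hS : S.card = 0 ∨ S.card = 2) : IsSimpleGroup (XS F S) := by
  have hd := finrank_VS (F := F) S
  obtain ⟨ρ, -⟩ := exists_res h2 (Q := (Q7 F).restrict (VS F S)) one_ne_zero (LinearEquiv.refl F (VS F S)) fun v => (one_mul _).symm
  have h5 : 5 ≤ finrank F (VS F S) := by omega
  have := isSimpleGroup_pOm (nondeg_VS h2 S) h5
  exact (ρ.trans (quotEquiv (nondeg_VS h2 S) h5 h2 (Nat.odd_iff.2 (by omega))).symm).isSimpleGroup

theorem simple_Om : IsSimpleGroup (Om F) := by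
  have h5 : 5 ≤ finrank F (V7 F) := by simp
  have := isSimpleGroup_pOm (nondeg h2) h5
  exact (quotEquiv (nondeg h2) h5 h2 (by rw [finrank_V7]; decide)).symm.isSimpleGroup

theorem nonempty_POmega : Nonempty (Om F ≃* Cfsg.POmega F (Cfsg.quadFormOdd 3 F)) := by
  obtain ⟨c, φ, hc, hφ⟩ := odd_classification (nondeg h2) (m := 3) finrank_V7
  exact ⟨(quotEquiv (nondeg h2) (by simp) h2 (by rw [finrank_V7]; decide)).symm.trans
    ((pOmegaEquiv (QOdd 3 F)).trans (pOmCongr ((MulEquiv.subgroupCongr (O_smul hc).symm).trans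
      (congrO (Q := c • QOdd 3 F) φ hφ)))).symm⟩

end CL.O7
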