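/- S3101, the case `Ω₇(q)`: unit vectors of the form `∑ xᵢ²` in dimension 7. -/
import Cfsg.Agent.INV.O7.RDef

set_option autoImplicit false

namespace CL.O7

open Subgroup CL.Orth CL.OrthE QuadraticMap Equiv

set_option maxHeartbeats 200000

namespace Geo

variable {F : Type} [Field F]

theorem dot_add (u v w : V7 F) : dot u (v + w) = dot u v + dot u w := by
  simp [dot, mul_add, Finset.sum_add_distrib]

theorem dot_sub (u v w : V7 F) : dot u (v - w) = dot u v - dot u w := by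
  simp [dot, mul_sub, Finset.sum_sub_distrib]

theorem dot_smul (u : V7 F) (c : F) (v : V7 F) : dot u (c • v) = c * dot u v := by
  simp [dot, Finset.mul_sum, mul_left_comm]

theorem add_dot (u v w : V7 F) : dot (u + v) w = dot u w + dot v w := by
  rw [dot_comm, dot_add, dot_comm w, dot_comm w]

theorem sub_dot (u v w : V7 F) : dot (u - v) w = dot u w - dot v w := by
  rw [dot_comm, dot_sub, dot_comm w, dot_comm w]

theorem smul_dot (c : F) (u v : V7 F) : dot (c • u) v = c * dot u v := by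
  rw [dot_comm, dot_smul, dot_comm]

theorem dot_zero (u : V7 F) : dot u 0 = 0 := by simp [dot]

theorem zero_dot (u : V7 F) : dot 0 u = 0 := by simp [dot]

theorem dot_sum {ι : Type} [Fintype ι] (u : V7 F) (f : ι → V7 F) : dot u (∑ i, f i) = ∑ i, dot u (f i) := by
  simp only [dot, Finset.sum_apply, Finset.mul_sum]
  exact Finset.sum_comm

theorem ee_ee {i j : Fin 7} (h : i ≠ j) : dot (ee i : V7 F) (ee j) = 0 := by
  rw [dot_ee, ee_apply, if_neg h.symm]

/-- an orthogonal family of non-singular vectors -/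
def OF {ι : Type} (e : ι → V7 F) : Prop := (∀ i, Q7 F (e i) ≠ 0) ∧ ∀ i j, i ≠ j → dot (e i) (e j) = 0

variable {ι : Type} {e : ι → V7 F}

theorem OF.opt (h : OF e) {v : V7 F} (hv : Q7 F v ≠ 0) (h0 : ∀ i, dot (e i) v = 0) :
    OF fun o : Option ι => o.elim v e := by
  refine ⟨fun o => ?_, fun o o' n => ?_⟩
  · cases o; exacts [hv, h.1 _]
  · cases o <;> cases o'
    exacts [absurd rfl n, (dot_comm _ _).trans (h0 _), h0 _, h.2 _ _ fun e => n (congrArg some e)]

theorem of_ee (S : Finset (Fin 7)) : OF fun i : S => (ee i : V7 F) :=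
  ⟨fun i => by rw [Q7_ee]; exact one_ne_zero, fun _ _ n => ee_ee fun e => n (Subtype.ext e)⟩

variable [Fintype ι]

theorem OF.coef (h : OF e) (c : ι → F) (j : ι) : dot (e j) (∑ i, c i • e i) = c j * Q7 F (e j) := by
  rw [dot_sum, Finset.sum_eq_single j (fun i _ n => by rw [dot_smul, h.2 j i n.symm, mul_zero]) (by simp),
    dot_smul, dot_self]

theorem OF.li (h : OF e) : LinearIndependent F e := Fintype.linearIndependent_iff.2 fun c hc j => by
  have := h.coef c j
  rw [hc, dot_zero] at this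
  exact (mul_eq_zero.1 this.symm).resolve_right (h.1 j)

theorem OF.proj (h : OF e) (y : V7 F) : ∃ y', (∀ i, dot (e i) y' = 0) ∧
    ∀ w, (∀ i, dot (e i) w = 0) → dot w y' = dot w y := by
  refine ⟨y - ∑ i, (dot (e i) y / Q7 F (e i)) • e i, fun j => ?_, fun w hw => ?_⟩
  · rw [dot_sub, h.coef, div_mul_cancel₀ _ (h.1 j), sub_self]
  · rw [dot_sub, dot_sum, Finset.sum_eq_zero fun i _ => by rw [dot_smul, dot_comm w, hw, mul_zero], sub_zero]

theorem li4 {a b c d : V7 F} (ha : Q7 F a = 1) (hb : Q7 F b = 1) (hab : dot a b = 0) (hac : dot a c = 0)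
    (had : dot a d = 0) (hbc : dot b c = 0) (hbd : dot b d = 0) (h : LinearIndependent F ![c, d]) :
    LinearIndependent F ![a, b, c, d] := Fintype.linearIndependent_iff.2 fun g hg => by
  simp only [Fin.sum_univ_four, Matrix.cons_val] at hg
  have h0 := congrArg (dot a) hg
  have h1 := congrArg (dot b) hg
  simp only [dot_add, dot_smul, dot_self, dot_zero, ha, hb, hab, hac, had, hbc, hbd, dot_comm b a, mul_zero,
    mul_one, add_zero, zero_add] at h0 h1
  rw [h0, h1, zero_smul, zero_smul, zero_add, zero_add] at hg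
  have := LinearIndependent.pair_iff.1 h _ _ hg
  intro i
  fin_cases i
  exacts [h0, h1, this.1, this.2]

theorem sq_refl {i j : Fin 7} {z : OO F} {a b : F} (h1 : a * a + b * b = 1)
    (hi : z.1 (ee i) = a • ee i + b • ee j) (hj : z.1 (ee j) = b • ee i - a • ee j)
    (h : ∀ k, k ≠ i → k ≠ j → z.1 (ee k) = ee k) : z * z = 1 := ext_ee fun k => by
  rw [O_mul_apply, O_one_apply]
  by_cases e1 : k = i
  · rw [e1, hi, map_add, map_smul, map_smul, hi, hj]
    linear_combination (norm := module) h1 • (ee i : V7 F)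
  by_cases e2 : k = j
  · rw [e2, hj, map_sub, map_smul, map_smul, hi, hj]
    linear_combination (norm := module) h1 • (ee j : V7 F)
  rw [h k e1 e2, h k e1 e2]

theorem plane (h2 : (2 : F) ≠ 0) {i j : Fin 7} (hij : i ≠ j) {z : OO F}
    (h : ∀ k, k ≠ i → k ≠ j → z.1 (ee k) = ee k) {l : Fin 7} (hl : l = i ∨ l = j) :
    z.1 (ee l) = z.1 (ee l) i • ee i + z.1 (ee l) j • ee j := by
  ext k
  by_cases e1 : k = i
  · simp [e1, ee_apply, hij]
  by_cases e2 : k = j
  · simp [e2, ee_apply, hij.symm]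
  rw [← dot_ee (z.1 (ee l)) k, ← h k e1 e2, dot_map h2, ee_ee (by rintro rfl; tauto)]
  simp [ee_apply, e1, e2]

end Geo

open Geo

variable {F : Type} [Field F] [Fintype F] (h2 : (2 : F) ≠ 0)
include h2

theorem exists_norm {ι : Type} [Fintype ι] (hι : Fintype.card ι ≤ 5) {e : ι → V7 F} (h1 : ∀ i, Q7 F (e i) ≠ 0)
    (h0 : ∀ i j, i ≠ j → dot (e i) (e j) = 0) (c : F) : ∃ w, Q7 F w = c ∧ ∀ i, dot (e i) w = 0 := by
  have h : OF e := ⟨h1, h0⟩
  have hU : Submodule.span F (Set.range e) ⊓ perp (Q7 F) (Submodule.span F (Set.range e)) = ⊥ := by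
    refine eq_bot_iff.2 fun x hx => ?_
    obtain ⟨c, rfl⟩ := (Submodule.mem_span_range_iff_exists_fun F).1 hx.1
    refine Finset.sum_eq_zero fun j _ => ?_
    have := mem_perp_span.1 hx.2 _ ⟨j, rfl⟩
    rw [polar_Q7, h.coef, mul_eq_zero, mul_eq_zero] at this
    rw [(this.resolve_left h2).resolve_right (h1 j), zero_smul]
  have h3 := finrank_perp (nondeg h2) (Submodule.span F (Set.range e))
  rw [finrank_span_eq_card h.li, finrank_V7] at h3
  obtain ⟨w, hw, e1⟩ := exists_Q_eq_mem (W := perp (Q7 F) (Submodule.span F (Set.range e)))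
    (by rw [perp_perp (nondeg h2), inf_comm, hU]) (by omega) c
  refine ⟨w, e1, fun i => ?_⟩
  have := mem_perp_span.1 hw _ ⟨i, rfl⟩
  rw [polar_Q7] at this
  exact (mul_eq_zero.1 this).resolve_left h2

theorem Geo.unit_coord {S : Finset (Fin 7)} (hS : S.card ≤ 4) {i : Fin 7} (hi : i ∉ S) (a : F) :
    ∃ u ∈ VS F S, Q7 F u = 1 ∧ u i = a := by
  obtain ⟨w, w1, w2⟩ := exists_norm h2 (by rw [Fintype.card_coe]; exact (Finset.card_insert_le i S).trans (by omega))
    (of_ee (insert i S)).1 (of_ee _).2 (1 - a * a)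
  have w0 : ∀ j ∈ insert i S, w j = 0 := fun j hj => (ee_dot _ _).symm.trans (w2 ⟨j, hj⟩)
  refine ⟨a • ee i + w, add_mem (Submodule.smul_mem _ _ (ee_mem_VS hi)) fun j hj => w0 j (by simp [hj]), ?_,
    by simp [ee_apply, w0]⟩
  rw [Q_add, Q_smul, Q7_ee, w1, polar_Q7, smul_dot, ee_dot, w0 i (by simp)]
  ring

theorem exists_unit {ι : Type} [Fintype ι] (hι : Fintype.card ι ≤ 3) {e : ι → V7 F} (h1 : ∀ i, Q7 F (e i) ≠ 0)
    (h0 : ∀ i j, i ≠ j → dot (e i) (e j) = 0) (y : V7 F) : ∃ w, Q7 F w = 1 ∧ dot y w = 0 ∧ ∀ i, dot (e i) w = 0 := by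
  have h : OF e := ⟨h1, h0⟩
  obtain ⟨y', p1, p2⟩ := h.proj y
  suffices ∃ w, Q7 F w = 1 ∧ dot w y' = 0 ∧ ∀ i, dot (e i) w = 0 by
    obtain ⟨w, a, b, c⟩ := this
    exact ⟨w, a, by rw [dot_comm, ← p2 w c, b], c⟩
  by_cases y0 : y' = 0
  · obtain ⟨w, a, b⟩ := exists_norm h2 (by omega) h1 h0 1
    exact ⟨w, a, by rw [y0, dot_zero], b⟩
  by_cases q0 : Q7 F y' = 0
  swap
  · have h' := h.opt q0 p1
    obtain ⟨w, a, b⟩ := exists_norm h2 (by rw [Fintype.card_option]; omega) h'.1 h'.2 1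
    exact ⟨w, a, (dot_comm _ _).trans (b none), fun i => b (some i)⟩
  obtain ⟨z, hz⟩ := exists_polar_ne_zero (nondeg h2) y0
  obtain ⟨z', r1, r2⟩ := h.proj z
  obtain ⟨a, b, s1, s2⟩ := hyp_partner q0 (y := z') (by rwa [polar_Q7, r2 _ p1, ← polar_Q7])
  have s3 : ∀ i, dot (e i) (a • z' + b • y') = 0 := fun i => by
    rw [dot_add, dot_smul, dot_smul, r1, p1, mul_zero, mul_zero, add_zero]
  generalize a • z' + b • y' = f at s1 s2 s3
  have h' := (h.opt (v := y' + f) (by rw [Q_add, q0, s1, s2]; simp) fun i => by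
    rw [dot_add, p1, s3, add_zero]).opt (v := y' - f) (by rw [Q_sub, q0, s1, s2]; simp) fun o => by
      cases o with
      | none =>
        change dot (y' + f) _ = 0
        rw [add_dot, dot_sub, dot_sub, dot_self, dot_self, q0, s1, dot_comm f]; ring
      | some i => exact (dot_sub _ _ _).trans (by rw [Option.elim_some, p1, s3, sub_zero])
  obtain ⟨w, a, b⟩ := exists_norm h2 (by rw [Fintype.card_option, Fintype.card_option]; omega) h'.1 h'.2 1
  refine ⟨w, a, mul_left_cancel₀ h2 ?_, fun i => b (some (some i))⟩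
  have b1 : dot (y' - f) w = 0 := b none
  have b2 : dot (y' + f) w = 0 := b (some none)
  rw [sub_dot] at b1
  rw [add_dot] at b2
  rw [dot_comm]
  linear_combination b1 + b2

theorem exists_unit4 {a b c d : V7 F} (ha : Q7 F a = 1) (hb : Q7 F b = 1) (hab : dot a b = 0) (hbc : dot b c = 0)
    (hcd : dot c d = 0) (hda : dot d a = 0) :
    ∃ w, Q7 F w = 1 ∧ dot a w = 0 ∧ dot b w = 0 ∧ dot c w = 0 ∧ dot d w = 0 := by
  suffices ∀ c d : V7 F, dot a c = 0 → dot b c = 0 → dot a d = 0 → dot b d = 0 → dot c d = 0 →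
      ∃ w, Q7 F w = 1 ∧ dot a w = 0 ∧ dot b w = 0 ∧ dot c w = 0 ∧ dot d w = 0 by
    obtain ⟨w, p, q, r, s, t⟩ := this (c - dot a c • a) (d - dot b d • b)
      (by rw [dot_sub, dot_smul, dot_self, ha]; ring) (by rw [dot_sub, dot_smul, hbc, dot_comm b, hab]; ring)
      (by rw [dot_sub, dot_smul, dot_comm a d, hda, hab]; ring) (by rw [dot_sub, dot_smul, dot_self, hb]; ring)
      (by simp only [dot_sub, sub_dot, dot_smul, smul_dot, hcd, dot_comm c b, hbc, dot_comm a d, hda, hab]; ring)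
    rw [sub_dot, smul_dot] at s t
    exact ⟨w, p, q, r, by simpa [q] using s, by simpa [r] using t⟩
  clear hbc hcd hda c d
  have o : OF ![a, b] := ⟨fun i => by fin_cases i <;> simp [ha, hb], fun i j n => by
    fin_cases i <;> fin_cases j <;> simp_all [dot_comm b a]⟩
  have k1 : ∀ c d : V7 F, dot a c = 0 → dot b c = 0 → Q7 F c ≠ 0 →
      ∃ w, Q7 F w = 1 ∧ dot a w = 0 ∧ dot b w = 0 ∧ dot c w = 0 ∧ dot d w = 0 := fun c d p q r => by
    have o' := o.opt r fun i => by fin_cases i; exacts [p, q]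
    obtain ⟨w, s, t, u⟩ := exists_unit h2 (by simp) o'.1 o'.2 d
    exact ⟨w, s, u (some 0), u (some 1), u none, t⟩
  have k2 : ∀ (c d : V7 F) (s t : F), s • c + t • d = 0 → t ≠ 0 →
      ∃ w, Q7 F w = 1 ∧ dot a w = 0 ∧ dot b w = 0 ∧ dot c w = 0 ∧ dot d w = 0 := fun c d s t p q => by
    obtain ⟨w, r, r', u⟩ := exists_unit h2 (by simp) o.1 o.2 c
    have := congrArg (dot · w) p
    simp only [add_dot, smul_dot, r', zero_dot, mul_zero, zero_add] at this
    exact ⟨w, r, u 0, u 1, r', (mul_eq_zero.1 this).resolve_left q⟩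
  intro c d ac bc ad bd cd
  by_cases qc : Q7 F c = 0
  swap
  · exact k1 c d ac bc qc
  by_cases qd : Q7 F d = 0
  swap
  · obtain ⟨w, p, q, r, s, t⟩ := k1 d c ad bd qd
    exact ⟨w, p, q, r, t, s⟩
  by_cases li : LinearIndependent F ![c, d]
  swap
  · rw [LinearIndependent.pair_iff] at li
    push Not at li
    obtain ⟨s, t, p, q⟩ := li
    by_cases s0 : s = 0
    · exact k2 c d s t p (q s0)
    · obtain ⟨w, p, q, r, s, t⟩ := k2 d c t s (add_comm (s • c) _ ▸ p) s0
      exact ⟨w, p, q, r, t, s⟩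
  obtain ⟨v, v1, v2⟩ := exists_norm h2 (by rw [Fintype.card_coe]; decide) (of_ee {0, 1, 2, 3, 4}).1 (of_ee _).2 (-1)
  have v0 : ∀ i : Fin 7, i ∈ ({0, 1, 2, 3, 4} : Finset (Fin 7)) → v i = 0 := fun i hi =>
    (ee_dot _ _).symm.trans (v2 ⟨i, hi⟩)
  rw [Q7_apply, Fin.sum_univ_seven, v0 0 (by simp), v0 1 (by simp), v0 2 (by simp), v0 3 (by simp),
    v0 4 (by simp)] at v1
  generalize v 5 = x at v1
  generalize v 6 = y at v1
  have d1 : Q7 F ![0, 0, 0, 1, 0, x, y] = 0 := by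
    rw [Q7_apply, Fin.sum_univ_seven]; simp only [Matrix.cons_val]; linear_combination v1
  have d2 : Q7 F ![0, 0, 0, 0, 1, y, -x] = 0 := by
    rw [Q7_apply, Fin.sum_univ_seven]; simp only [Matrix.cons_val]; linear_combination v1
  have d3 : dot ![0, 0, 0, 1, 0, x, y] ![0, 0, 0, 0, 1, y, -x] = 0 := by
    rw [dot, Fin.sum_univ_seven]; simp only [Matrix.cons_val]; ring
  obtain ⟨g, hg⟩ := witt_family (nondeg h2) (li4 (c := ![0, 0, 0, 1, 0, x, y]) (d := ![0, 0, 0, 0, 1, y, -x])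
    (Q7_ee 0) (Q7_ee 1) (ee_ee (by decide)) (ee_dot _ _) (ee_dot _ _) (ee_dot _ _) (ee_dot _ _)
    (LinearIndependent.pair_iff.2 fun s t h => ⟨by simpa using congrFun h 3, by simpa using congrFun h 4⟩))
    (li4 ha hb hab ac ad bc bd li) (fun i j => by
      rw [polar_Q7, polar_Q7]
      fin_cases i <;> fin_cases j <;>
        simp [dot_self, ha, hb, hab, ac, ad, bc, bd, cd, qc, qd, d1, d2, d3, dot_comm b a, dot_comm c a, dot_comm d a,
          dot_comm c b, dot_comm d b, dot_comm d c, Q7_ee, dot_ee, ee_dot, ee_apply,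
          dot_comm ![0, 0, 0, 0, 1, y, -x] ![0, 0, 0, 1, 0, x, y]])
    (fun i => by fin_cases i <;> simp [ha, hb, qc, qd, d1, d2, Q7_ee])
  have k := fun i => dot_map h2 g (![ee 0, ee 1, ![0, 0, 0, 1, 0, x, y], ![0, 0, 0, 0, 1, y, -x]] i) (ee 2)
  simp only [hg, dot_ee] at k
  exact ⟨g.1 (ee 2), by rw [O_map, Q7_ee], k 0, k 1, k 2, k 3⟩

theorem exists_Om {ι : Type} [Fintype ι] (hι : Fintype.card ι ≤ 5) {e e' : ι → V7 F} (h1 : ∀ i, Q7 F (e i) ≠ 0)
    (h0 : ∀ i j, i ≠ j → dot (e i) (e j) = 0) (h : ∀ i j, dot (e' i) (e' j) = dot (e i) (e j)) :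
    ∃ g ∈ Om F, ∀ i, g.1 (e i) = e' i := by
  have q : ∀ i, Q7 F (e' i) = Q7 F (e i) := fun i => by rw [← dot_self, h, dot_self]
  have o : OF e' := ⟨fun i => q i ▸ h1 i, fun i j n => (h i j).trans (h0 i j n)⟩
  obtain ⟨g, hg⟩ := witt_family (nondeg h2) (OF.li ⟨h1, h0⟩) o.li
    (fun i j => by rw [polar_Q7, polar_Q7, h]) q
  obtain ⟨a, a1, a2⟩ := exists_norm h2 hι o.1 o.2 1
  obtain ⟨n, n0, n1⟩ := exists_sqSign_eq_neg_one h2
  obtain ⟨b, b1, b2⟩ := exists_norm h2 hι o.1 o.2 n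
  have k : ∀ a : V7 F, (∀ i, dot (e' i) a = 0) → ∀ g : OO F, (∀ i, g.1 (e i) = e' i) →
      ∀ i, (Orth.refl (Q7 F) a * g).1 (e i) = e' i := fun a ha g hg i => by
    rw [O_mul_apply, hg, refl_of_polar_eq_zero (by rw [polar_Q7, dot_comm, ha, mul_zero])]
  have m := mem_commutator_iff (nondeg h2) (.inr (by rw [finrank_V7]; decide))
  have a0 : Q7 F a ≠ 0 := a1 ▸ one_ne_zero
  have b0 : Q7 F b ≠ 0 := b1 ▸ n0
  have da := fun g => dsign_refl_mul (nondeg h2) g a0
  have db := fun g => dsign_refl_mul (nondeg h2) g b0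
  have sa := fun g => spin_refl_mul (nondeg h2) g a0
  have sb := fun g => spin_refl_mul (nondeg h2) g b0
  rw [a1, sqSign_eq_one_iff.2 IsSquare.one] at sa
  rw [b1, n1] at sb
  rcases Int.units_eq_one_or (dsign g) with p | p <;> rcases Int.units_eq_one_or (spin g) with r | r
  · exact ⟨g, (m g).2 ⟨p, r⟩, hg⟩
  · exact ⟨_, (m _).2 ⟨by simp [da, db, p], by simp [sa, sb, r]⟩, k a a2 _ (k b b2 g hg)⟩
  · exact ⟨_, (m _).2 ⟨by simp [da, p], by simp [sa, r]⟩, k a a2 g hg⟩
  · exact ⟨_, (m _).2 ⟨by simp [db, p], by simp [sb, r]⟩, k b b2 g hg⟩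

theorem XS_trans {S : Finset (Fin 7)} (hS : S.card ≤ 4) {u v : V7 F} (hu : u ∈ VS F S) (hv : v ∈ VS F S)
    (h0 : Q7 F u ≠ 0) (h : Q7 F v = Q7 F u) : ∃ g ∈ XS F S, g.1 u = v := by
  have o := (of_ee (F := F) S).opt h0 fun i => (ee_dot _ _).trans (hu i i.2)
  obtain ⟨g, hg, e⟩ := exists_Om h2 (by rw [Fintype.card_option, Fintype.card_coe]; omega) o.1 o.2
    (e' := fun o : Option S => o.elim v fun i => ee i) fun i j => by
      cases i <;> cases j <;> simp only [Option.elim_none, Option.elim_some]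
      · rw [dot_self, dot_self, h]
      · rw [dot_ee, dot_ee, hu _ (Subtype.property _), hv _ (Subtype.property _)]
      · rw [ee_dot, ee_dot, hu _ (Subtype.property _), hv _ (Subtype.property _)]
  exact ⟨g, ⟨hg, fun i hi => e (some ⟨i, hi⟩)⟩, e none⟩

theorem XS_gen {S : Finset (Fin 7)} (hS : S.card ≤ 2) {i j : Fin 7} (hi : i ∉ S) (hj : j ∉ S) (hij : i ≠ j) :
    XS F S ≤ XS F (insert i S) ⊔ XS F (insert j S) := by
  have hle : XS F (insert i S) ⊔ XS F (insert j S) ≤ XS F S :=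
    sup_le (XS_anti (Finset.subset_insert _ _)) (XS_anti (Finset.subset_insert _ _))
  have c1 := Finset.card_insert_le i S
  have c2 := Finset.card_insert_le j S
  have c3 := Finset.card_insert_le j (insert i S)
  obtain ⟨k, -, hk⟩ := Finset.exists_mem_notMem_of_card_lt_card (s := insert j (insert i S)) (t := Finset.univ)
    (by rw [Finset.card_univ, Fintype.card_fin]; omega)
  simp only [Finset.mem_insert, not_or] at hk
  obtain ⟨g, hg, e⟩ := XS_trans h2 (S := insert j S) (by omega) (u := ee i) (v := ee k)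
    (ee_mem_VS (by simp [hi, hij])) (ee_mem_VS (by simp [hk])) (by simp [Q7_ee]) (by simp [Q7_ee])
  have p1 : ∀ w ∈ VS F (insert i S), Q7 F w = 1 → ∃ g ∈ XS F (insert i S) ⊔ XS F (insert j S), g.1 (ee i) = w :=
    fun w hw q => by
      obtain ⟨x, hx, e'⟩ := XS_trans h2 (S := insert i S) (by omega) (u := ee k) (ee_mem_VS (by simp [hk])) hw
        (by simp [Q7_ee]) (by rw [q, Q7_ee])
      exact ⟨x * g, mul_mem (mem_sup_left hx) (mem_sup_right hg), by rw [O_mul_apply, e, e']⟩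
  intro x hx
  obtain ⟨w, w1, w2, w3⟩ := exists_unit h2 (by rw [Fintype.card_coe]; omega) (of_ee (insert i S)).1 (of_ee _).2
    (x.1 (ee i))
  obtain ⟨y, hy, ey⟩ := p1 w (fun l hl => (ee_dot _ _).symm.trans (w3 ⟨l, hl⟩)) w1
  obtain ⟨z, hz, ez⟩ := p1 ((y⁻¹ * x).1 (ee i)) (fun l hl => by
    rcases Finset.mem_insert.1 hl with rfl | hl
    · rw [← dot_ee ((y⁻¹ * x).1 _), ← dot_map h2 y, O_mul_apply, O_apply_inv, ey, w2]
    · exact XS_map h2 (mul_mem (inv_mem (hle hy)) hx) (ee_mem_VS hi) l hl) (by rw [O_map, Q7_ee])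
  have := mul_mem (inv_mem (hle hz)) (mul_mem (inv_mem (hle hy)) hx)
  refine (mul_mem_cancel_left (inv_mem hy)).1 ((mul_mem_cancel_left (inv_mem hz)).1
    (mem_sup_left ⟨this.1, fun l hl => ?_⟩))
  rcases Finset.mem_insert.1 hl with rfl | hl
  exacts [by rw [O_mul_apply, ← ez, O_inv_apply], this.2 l hl]

theorem eq_smul_of_cj {S : Finset (Fin 7)} (hS : S.card ≤ 4) {σ : F ≃+* F} {s : V7 F ≃+ V7 F}
    (hs : ∀ c v, s (c • v) = σ c • s v) {i : Fin 7} (hi : i ∉ S) {c : F} (hc : s (ee i) = c • ee i)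
    (h : ∀ x ∈ XS F S, Cj s x x) : σ = 1 ∧ ∀ v ∈ VS F S, s v = c • v := by
  have k1 : ∀ u ∈ VS F S, Q7 F u = 1 → s u = c • u := fun u hu q => by
    obtain ⟨x, hx, e⟩ := XS_trans h2 hS (ee_mem_VS hi) hu (by simp [Q7_ee]) (by rw [q, Q7_ee])
    rw [← e, ← h x hx, hc, map_smul]
  have k2 : ∀ v ∈ VS F S, s v = ∑ j, (σ (v j) * c) • ee j := fun v hv => by
    conv_lhs => rw [← sum_ee v, map_sum]
    refine Finset.sum_congr rfl fun j _ => ?_
    by_cases hj : j ∈ S
    · simp [hv j hj]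
    · rw [hs, k1 _ (ee_mem_VS hj) (Q7_ee j), mul_smul]
  have c0 : c ≠ 0 := fun e => by
    rw [e, zero_smul, map_eq_zero_iff _ s.injective] at hc
    simpa [ee_apply] using congrFun hc i
  have k3 : σ = 1 := RingEquiv.ext fun a => by
    obtain ⟨u, hu, q, e⟩ := Geo.unit_coord h2 hS hi a
    have := congrFun ((k1 u hu q).symm.trans (k2 u hu)) i
    simp [ee_apply, e] at this
    exact mul_right_cancel₀ c0 (this.symm.trans (mul_comm _ _))
  refine ⟨k3, fun v hv => ?_⟩
  rw [k2 v hv, k3]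
  ext j
  simp [ee_apply, mul_comm]

/-- A subgroup of odd order normalized by `Ω(ee 3, …, ee 6)` contains no rotation of the plane `⟨ee i, ee j⟩`. -/
theorem rot_eq_one {S : Finset (Fin 7)} (hS : S.card ≤ 3) {Y : Subgroup (OO F)} (hY : Odd (Nat.card Y))
    (hn : ∀ x ∈ XS F S, ∀ y ∈ Y, x * y * x⁻¹ ∈ Y) {i j : Fin 7} (hi : i ∉ S) (hj : j ∉ S) (hij : i ≠ j) {y : OO F}
    (hy : y ∈ Y) (h : ∀ k, k ≠ i → k ≠ j → y.1 (ee k) = ee k) : y = 1 := by
  obtain ⟨r, hr, rfl⟩ : ∃ r : OO F, (∀ k, k ≠ i → k ≠ j → r.1 (ee k) = ee k) ∧ r * r = y := by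
    obtain ⟨n, hn⟩ := hY
    refine ⟨y ^ (n + 1), fun k p q => ?_, ?_⟩
    · generalize n + 1 = m
      induction m with
      | zero => rfl
      | succ m ih => rw [pow_succ, O_mul_apply, h k p q, ih]
    · rw [← pow_add, show n + 1 + (n + 1) = Nat.card Y + 1 by omega, pow_succ,
        show y ^ Nat.card Y = 1 from congrArg Subtype.val (pow_card_eq_one' (x := (⟨y, hy⟩ : Y))), one_mul]
  have e1 := plane h2 hij hr (.inl rfl)
  have e2 := plane h2 hij hr (.inr rfl)
  generalize r.1 (ee i) i = a, r.1 (ee i) j = b, r.1 (ee j) i = c, r.1 (ee j) j = d at e1 e2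
  have q1 := dot_map h2 r (ee i) (ee i)
  have q2 := dot_map h2 r (ee j) (ee j)
  have q3 := dot_map h2 r (ee i) (ee j)
  simp only [e1, e2, dot_add, dot_smul, dot_ee, Pi.add_apply, Pi.smul_apply, smul_eq_mul, ee_apply, hij, hij.symm,
    if_true, if_false, mul_zero, mul_one, add_zero, zero_add] at q1 q2 q3
  have hc : c = -(a * d - b * c) * b := by linear_combination (-c) * q1 + a * q3
  have hd : d = (a * d - b * c) * a := by linear_combination (-d) * q1 + b * q3
  rcases mul_self_eq_one_iff.1 (show (a * d - b * c) * (a * d - b * c) = 1 by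
    linear_combination (c * c + d * d) * q1 + q2 - (a * c + b * d) * q3) with p | p <;> rw [p] at hc hd
  swap
  · exact sq_refl q1 e1 (by rw [e2, hc, hd]; module) hr
  have ρi := refl_self (Q := Q7 F) (v := ee i) (by simp [Q7_ee])
  have ρk : ∀ k, k ≠ i → (Orth.refl (Q7 F) (ee i)).1 (ee k) = ee k := fun k hk =>
    refl_of_polar_eq_zero (by rw [polar_Q7, ee_ee hk.symm, mul_zero])
  have s1 := sq_refl (i := i) (j := j) (z := r * Orth.refl (Q7 F) (ee i)) (a := -a) (b := -b)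
    (by linear_combination q1) (by rw [O_mul_apply, ρi, map_neg, e1]; module)
    (by rw [O_mul_apply, ρk j hij.symm, e2, hc, hd]; module)
    fun k p q => by rw [O_mul_apply, ρk k p, hr k p q]
  have s2 : r * r = Orth.refl (Q7 F) (r.1 (ee i)) * Orth.refl (Q7 F) (ee i) := by
    have := refl_mul_self (Q := Q7 F) (ee i)
    rw [← Orth.conj_refl]
    generalize Orth.refl (Q7 F) (ee i) = ρ at s1 this
    rw [← mul_assoc] at s1
    rw [← eq_inv_of_mul_eq_one_right (show r * (ρ * r * ρ) = 1 by simpa only [mul_assoc] using s1)]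
    calc r * r = r * (ρ * ρ) * r * (ρ * ρ) := by rw [this, mul_one, mul_one]
      _ = _ := by simp only [mul_assoc]
  by_cases b0 : b = 0
  · rw [s2, e1, b0, zero_smul, add_zero, refl_smul (by rintro rfl; simp [b0] at q1), refl_mul_self]
  exfalso
  have c1 := Finset.card_insert_le i S
  have hj' : j ∉ insert i S := by simp [hj, hij.symm]
  obtain ⟨u, hu, qu, eu⟩ := Geo.unit_coord h2 (S := insert i S) (by omega) hj' (-(a * a) / (b * b))
  obtain ⟨x, hx, ex⟩ := XS_trans h2 (S := insert i S) (by omega) (ee_mem_VS hj') hu (by simp [Q7_ee])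
    (by rw [qu, Q7_ee])
  have xi := hx.2 i (by simp)
  have m := mul_mem (hn x (XS_anti (Finset.subset_insert _ _) hx) _ hy) (inv_mem hy)
  have o : dot (x.1 (r.1 (ee i))) (r.1 (ee i)) = 0 := by
    rw [e1, map_add, map_smul, map_smul, xi, ex]
    simp only [dot_add, dot_smul, dot_ee, Pi.add_apply, Pi.smul_apply, smul_eq_mul, ee_apply, eu, hu i (by simp),
      hij.symm, if_true, if_false]
    field_simp
    ring
  have qw : Q7 F (r.1 (ee i)) ≠ 0 := by simp [O_map, Q7_ee]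
  generalize r.1 (ee i) = w at s2 o qw
  rw [s2, ← conj_mul, Orth.conj_refl, Orth.conj_refl, xi, mul_inv_rev, refl_inv, refl_inv, mul_assoc, ← mul_assoc _ _ (Orth.refl _ w),
    refl_mul_self, one_mul] at m
  have f : (Orth.refl (Q7 F) (x.1 w)).1 w = w := refl_of_polar_eq_zero (by rw [polar_Q7, o, mul_zero])
  have cm := Orth.conj_refl (Orth.refl (Q7 F) (x.1 w)) w
  rw [f, refl_inv] at cm
  have t1 : (⟨_, m⟩ : Y) ^ 2 = 1 := Subtype.ext (by
    rw [Subgroup.coe_pow, _root_.sq, ← mul_assoc, cm, refl_mul_self]; rfl)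
  have t2 := congrArg (fun g : Y => g.1.1 w) (orderOf_eq_one_iff.1 (Nat.eq_one_of_dvd_coprimes
    (Nat.coprime_two_left.2 hY) (orderOf_dvd_of_pow_eq_one t1) (orderOf_dvd_natCard _)))
  simp only [O_mul_apply, refl_self qw, map_neg, f] at t2
  have t3 : (2 : F) • w = 0 := by rw [two_smul]; exact add_eq_zero_iff_neg_eq.2 t2
  exact qw (by rw [(smul_eq_zero.1 t3).resolve_left h2, map_zero])

end CL.O7
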