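/- S3101, the case `Ω₇(q)`: a presentation of `Ω₇` over the stabiliser `Ω₆` of a unit vector. -/
import Cfsg.Agent.INV.O7.RGeo

set_option autoImplicit false

namespace CL.O7

open Subgroup CL.Orth CL.OrthE QuadraticMap Equiv

set_option maxHeartbeats 200000

namespace Cov

variable {F : Type} [Field F] {G : Type*} [Group G]

/-- the hypotheses -/
structure Hy (φ : OO F → G) (z : G) : Prop where
  h2 : (2 : F) ≠ 0
  mul : ∀ x ∈ XS F {0}, ∀ y ∈ XS F {0}, φ (x * y) = φ x * φ y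
  ha : ∀ x ∈ XS F {0, 1}, z * φ x * z⁻¹ = φ (pm F (swap 0 1 * swap 4 5) * x * (pm F (swap 0 1 * swap 4 5))⁻¹)
  hb : z * z = 1
  hc : (z * φ (pm F (swap 1 2 * swap 4 5))) ^ 3 = 1

/-- the lift of `(0 1)(4 5)` -/
def sh (F : Type) [Field F] (z : G) : OO F × G := (pm F (swap 0 1 * swap 4 5), z)

/-- the image of the base point -/
def pt (g : OO F × G) : V7 F := g.1.1 (ee 0)

theorem pt_mul (g h : OO F × G) : pt (g * h) = g.1.1 (pt h) := rfl

omit [Group G] in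
theorem Q_pt (g : OO F × G) : Q7 F (pt g) = 1 := by rw [pt, O_map, Q7_ee]

omit [Group G] in
theorem pt_sh (z : G) : pt (sh F z) = ee 1 := by rw [pt, sh, pm_ee]; rfl

theorem u_mem : pm F (swap 1 2 * swap 4 5) ∈ XS F {0} := pm_mem_XS (by simp) (by decide)

namespace Hy

variable {φ : OO F → G} {z : G} (H : Hy φ z)

theorem one (H : Hy φ z) : φ 1 = 1 := by simpa using H.mul 1 (one_mem _) 1 (one_mem _)

/-- the graph of `φ` -/
def A : Subgroup (OO F × G) where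
  carrier := {p | p.1 ∈ XS F {0} ∧ p.2 = φ p.1}
  one_mem' := ⟨one_mem _, H.one.symm⟩
  mul_mem' := fun h h' => ⟨mul_mem h.1 h'.1, by rw [Prod.fst_mul, Prod.snd_mul, H.mul _ h.1 _ h'.1, h.2, h'.2]⟩
  inv_mem' := fun h => ⟨inv_mem h.1, by
    rw [Prod.fst_inv, Prod.snd_inv, h.2]
    exact inv_eq_of_mul_eq_one_right (by rw [← H.mul _ h.1 _ (inv_mem h.1), mul_inv_cancel, H.one])⟩

/-- adjacency -/
def R (g g' : OO F × G) : Prop := ∃ a ∈ H.A, ∃ b ∈ H.A, g' = g * a * sh F z * b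

theorem pt_A {a : OO F × G} (h : a ∈ H.A) : pt a = ee 0 := (mem_X0.1 h.1).2

theorem pt_R {g a b : OO F × G} (hb : b ∈ H.A) : pt (g * a * sh F z * b) = g.1.1 (a.1.1 (ee 1)) := by
  rw [pt_mul, H.pt_A hb, ← pt_sh z]; rfl

include H in
theorem sq : sh F z * sh F z = 1 := Prod.ext (by
  change pm F _ * pm F _ = 1
  rw [← map_mul, show swap 0 1 * swap 4 5 * (swap 0 1 * swap 4 5) = (1 : Perm (Fin 7)) by decide, map_one]) H.hb

include H in
theorem inv : (sh F z)⁻¹ = sh F z := inv_eq_of_mul_eq_one_right H.sq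

variable {H} {g g' g₁ g₂ : OO F × G}

theorem R.right (h : H.R g g') {c : OO F × G} (hc : c ∈ H.A) : H.R g (g' * c) :=
  let ⟨a, ha, b, hb, e⟩ := h
  ⟨a, ha, b * c, mul_mem hb hc, by rw [e, mul_assoc]⟩

theorem R.symm (h : H.R g g') : H.R g' g :=
  let ⟨a, ha, b, hb, e⟩ := h
  ⟨b⁻¹, inv_mem hb, a⁻¹, inv_mem ha, by rw [e, mul_inv_cancel_right, mul_assoc (g * a), H.sq]; group⟩

theorem R.sh (g : OO F × G) : H.R g (g * sh F z) := ⟨1, one_mem _, 1, one_mem _, by simp⟩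

theorem R.orth (h : H.R g g') : dot (pt g) (pt g') = 0 := by
  obtain ⟨a, ha, b, hb, rfl⟩ := h
  rw [H.pt_R hb, pt, dot_map H.h2, ← H.pt_A ha, pt, dot_map H.h2, Geo.ee_ee (by decide)]

theorem conj {c : OO F × G} (hc : c ∈ H.A) (h : c.1.1 (ee 1) = ee 1) : sh F z * c * sh F z ∈ H.A := by
  have h1 : c.1 ∈ XS F {0, 1} := ⟨hc.1.1, by simpa using ⟨(mem_X0.1 hc.1).2, h⟩⟩
  have h3 : sh F z * c * (sh F z)⁻¹ ∈ H.A := ⟨XS_anti (by simp) (conj_mem_XS (S := {0, 1}) (fun i hi => by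
    simp only [Finset.mem_insert, Finset.mem_singleton] at hi
    rcases hi with rfl | rfl
    exacts [⟨1, by simp, 1, by rw [one_smul]; exact pm_ee _ _⟩, ⟨0, by simp, 1, by rw [one_smul]; exact pm_ee _ _⟩])
    h1), Eq.trans (by rw [← hc.2]; rfl) (H.ha _ h1)⟩
  rwa [H.inv] at h3

theorem R.uniq (h₁ : H.R g g₁) (h₂ : H.R g g₂) (e : pt g₁ = pt g₂) : g₁⁻¹ * g₂ ∈ H.A := by
  obtain ⟨a, ha, b, hb, rfl⟩ := h₁
  obtain ⟨c, hc, d, hd, rfl⟩ := h₂
  rw [H.pt_R hb, H.pt_R hd] at e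
  have := mul_mem (mul_mem (inv_mem hb) (conj (mul_mem (inv_mem ha) hc) (by
    change (a.1⁻¹).1 (c.1.1 _) = _
    rw [← g.1.1.injective e, O_inv_apply]))) hd
  convert this using 1
  conv_rhs => rw [← H.inv]
  conv_rhs => enter [1, 2, 2]; rw [H.inv]
  group

theorem R.of_uniq (h : H.R g g₁) (e : g₁⁻¹ * g₂ ∈ H.A) : H.R g g₂ := by
  simpa using h.right e

variable [Fintype F]

variable (H) in
theorem lift (g : OO F × G) {w : V7 F} (q : Q7 F w = 1) (h : dot (pt g) w = 0) : ∃ g', H.R g g' ∧ pt g' = w := by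
  obtain ⟨x, hx, e⟩ := XS_trans H.h2 (S := {0}) (by simp) (u := ee 1) (v := (g.1⁻¹).1 w) (ee_mem_VS (by simp))
    (fun i hi => by rw [Finset.mem_singleton.1 hi, ← ee_dot 0 ((g.1⁻¹).1 w), ← dot_map H.h2 g.1, O_apply_inv]; exact h)
    (by simp [Q7_ee]) (by rw [O_map, q, Q7_ee])
  exact ⟨_, ⟨(x, φ x), ⟨hx, rfl⟩, 1, one_mem _, rfl⟩, by rw [H.pt_R (one_mem _), e, O_apply_inv]⟩

theorem R.tri (h₁ : H.R g g₁) (h₂ : H.R g g₂) (e : dot (pt g₁) (pt g₂) = 0) : H.R g₁ g₂ := by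
  obtain ⟨a, ha, b, hb, rfl⟩ := h₁
  have o := h₂.orth
  obtain ⟨x, hx, ex⟩ := XS_trans H.h2 (S := {0, 1}) (by simp) (u := ee 2) (v := ((g * a).1⁻¹).1 (pt g₂))
    (ee_mem_VS (by simp)) (fun i hi => by
      rw [← ee_dot i (((g * a).1⁻¹).1 _), ← dot_map H.h2 (g * a).1, O_apply_inv]
      simp only [Finset.mem_insert, Finset.mem_singleton] at hi
      rcases hi with rfl | rfl
      · rw [← o]; exact congrArg (fun v => dot (g.1.1 v) _) (H.pt_A ha)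
      · rw [← e, H.pt_R hb]; rfl) (by simp [Q7_ee]) (by rw [O_map, Q_pt, Q7_ee])
  have hc : (x, φ x) ∈ H.A := ⟨XS_anti (by simp) hx, rfl⟩
  obtain ⟨u, hu, u1, u2, u3⟩ : ∃ u ∈ H.A, u.1.1 (ee 1) = ee 2 ∧ u * u = 1 ∧ (Cov.sh F z * u) ^ 3 = 1 := by
    have k : pm F (swap 1 2 * swap 4 5) * pm F (swap 1 2 * swap 4 5) = 1 := by
      rw [← map_mul, show swap 1 2 * swap 4 5 * (swap 1 2 * swap 4 5) = (1 : Perm (Fin 7)) by decide, map_one]
    refine ⟨(_, φ _), ⟨u_mem, rfl⟩, pm_ee _ _, Prod.ext k ?_, Prod.ext ?_ H.hc⟩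
    · exact (H.mul _ u_mem _ u_mem).symm.trans (by rw [k, H.one]; rfl)
    · change (pm F _ * pm F _) ^ 3 = 1
      rw [← map_mul, ← map_pow,
        show (swap 0 1 * swap 4 5 * (swap 1 2 * swap 4 5)) ^ 3 = (1 : Perm (Fin 7)) by decide, map_one]
  have k1 : H.R g (g * (a * (x, φ x) * u) * Cov.sh F z * 1) :=
    ⟨_, mul_mem (mul_mem ha hc) hu, 1, one_mem _, rfl⟩
  refine R.of_uniq ⟨b⁻¹ * (Cov.sh F z * (x, φ x) * Cov.sh F z) * u,
    mul_mem (mul_mem (inv_mem hb) (conj hc (hx.2 1 (by simp)))) hu, u, hu, ?_⟩ (k1.uniq h₂ ?_)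
  · have s2 := H.sq
    generalize Cov.sh F z = s at s2 u3
    have k : u * s = s * u * s * u := by
      rw [← mul_one (u * s), ← mul_one (s * u * s * u), ← u3]
      calc _ = u * (s * s) * u * s * u * s * u := by simp only [pow_succ, pow_zero, one_mul, mul_assoc]
        _ = s * u * s * u := by rw [s2, mul_one, u2, one_mul]
        _ = _ := by rw [u3, mul_one]
    calc _ = g * a * (s * s) * (x, φ x) * (u * s) := by rw [s2]; group
      _ = _ := by rw [k]; group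
  · rw [H.pt_R (one_mem _)]
    change (g * a).1.1 (x.1 (u.1.1 _)) = _
    rw [u1, ex, O_apply_inv]

theorem quad {a b c d c' : OO F × G} (h1 : H.R a b) (h2 : H.R b c) (h3 : H.R a d) (h4 : H.R d c')
    (e : pt c = pt c') : c⁻¹ * c' ∈ H.A := by
  obtain ⟨w, q, p1, p2, p3, p4⟩ := exists_unit4 H.h2 (Q_pt a) (Q_pt b) h1.orth h2.orth (e ▸ h4.symm.orth) h3.symm.orth
  obtain ⟨t, ht, rfl⟩ := H.lift a q p1
  exact ((h1.tri ht p2).tri h2 ((dot_comm _ _).trans p3)).uniq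
    ((h3.tri ht p4).tri h4 ((dot_comm _ _).trans (e ▸ p3))) e

theorem step {b y y' : OO F × G} (h1 : H.R 1 b) (h2 : H.R b y) (h3 : H.R y y') : ∃ b, H.R 1 b ∧ H.R b y' := by
  obtain ⟨w, q, p1, p2⟩ := exists_unit H.h2 (e := ![pt y, pt y']) (by simp)
    (fun i => by fin_cases i <;> simp [Q_pt]) (fun i j n => by
      fin_cases i <;> fin_cases j <;> simp_all [h3.orth, h3.symm.orth]) (pt (1 : OO F × G))
  obtain ⟨t, ht, rfl⟩ := H.lift 1 q p1
  obtain ⟨y₁, hy, e⟩ := H.lift t (Q_pt y) ((dot_comm _ _).trans (p2 0))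
  exact ⟨t, ht, (hy.of_uniq (quad ht hy h1 h2 e)).symm.tri h3 ((dot_comm _ _).trans (p2 1))⟩

theorem step' {g a c : OO F × G} (h : ∃ b, H.R 1 b ∧ H.R b g) (ha : a ∈ H.A) (hc : c ∈ H.A) :
    ∃ b, H.R 1 b ∧ H.R b (g * a * Cov.sh F z * c) :=
  let ⟨_, h1, h2⟩ := h
  step h1 h2 ⟨a, ha, c, hc, rfl⟩

omit [Fintype F] in
theorem base : H.R 1 (Cov.sh F z) ∧ H.R (Cov.sh F z) 1 := by
  have := R.sh (H := H) 1
  rw [one_mul] at this
  exact ⟨this, this.symm⟩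

variable (H) in
/-- the covering group -/
def Γ : Subgroup (OO F × G) where
  carrier := {g | ∃ b, H.R 1 b ∧ H.R b g}
  one_mem' := ⟨_, base⟩
  mul_mem' := by
    rintro g _ hg ⟨_, ⟨a, ha, b, hb, rfl⟩, c, hc, d, hd, rfl⟩
    simpa only [mul_assoc, one_mul, Set.mem_ofPred_eq] using step' (step' hg ha hb) hc hd
  inv_mem' := by
    rintro _ ⟨_, ⟨a, ha, b, hb, rfl⟩, c, hc, d, hd, rfl⟩
    simpa only [mul_assoc, one_mul, mul_inv_rev, H.inv, Set.mem_ofPred_eq] using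
      step' (step' ⟨_, base⟩ (inv_mem hd) (inv_mem hc)) (inv_mem hb) (inv_mem ha)

theorem A_le {a : OO F × G} (h : a ∈ H.A) : a ∈ H.Γ := ⟨_, base.1, by simpa using base.2.right h⟩

theorem mem_Om {g : OO F × G} (h : g ∈ H.Γ) : g.1 ∈ Om F := by
  obtain ⟨_, ⟨a, ha, b, hb, rfl⟩, c, hc, d, hd, rfl⟩ := h
  have s : (Cov.sh F z).1 ∈ Om F := pm_mem_Om (by simp)
  exact mul_mem (mul_mem (mul_mem (mul_mem (mul_mem (mul_mem (one_mem _) ha.1.1) s) hb.1.1) hc.1.1) s) hd.1.1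

end Hy

end Cov

variable {F : Type} [Field F] [Fintype F] {G : Type*} [Group G]

/-- The orthogonality graph on the unit vectors is simply connected. -/
theorem exists_hom (h2 : (2 : F) ≠ 0) {φ : OO F → G} (mul : ∀ x ∈ XS F {0}, ∀ y ∈ XS F {0}, φ (x * y) = φ x * φ y) {z : G}
    (ha : ∀ x ∈ XS F {0, 1}, z * φ x * z⁻¹ = φ (pm F (swap 0 1 * swap 4 5) * x * (pm F (swap 0 1 * swap 4 5))⁻¹))
    (hb : z * z = 1) (hc : (z * φ (pm F (swap 1 2 * swap 4 5))) ^ 3 = 1) :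
    ∃ Φ : Om F →* G, (∀ x : Om F, x.1 ∈ XS F {0} → Φ x = φ x) ∧
      ∀ x : Om F, x.1 = pm F (swap 0 1 * swap 4 5) → Φ x = z := by
  have H : Cov.Hy φ z := ⟨h2, mul, ha, hb, hc⟩
  let ψ : H.Γ →* Om F := ((MonoidHom.fst _ _).comp H.Γ.subtype).codRestrict _ fun g => Cov.Hy.mem_Om g.2
  have hψ : Function.Bijective ψ := by
    refine ⟨(injective_iff_map_eq_one ψ).2 fun g hg => ?_, fun x => ?_⟩
    · obtain ⟨g, b, h1, h2⟩ := g
      have e : g.1 = 1 := congrArg Subtype.val hg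
      have := Cov.Hy.quad Cov.Hy.base.1 Cov.Hy.base.2 h1 h2 (by rw [Cov.pt, Cov.pt, e]; rfl)
      rw [inv_one, one_mul] at this
      exact Subtype.ext (Prod.ext e (this.2.trans (by rw [e, H.one]; rfl)))
    · obtain ⟨w, q, p1, p2⟩ := exists_unit h2 (e := fun _ : Unit => x.1.1 (ee 0)) (by simp)
        (fun _ => by simp [O_map, Q7_ee]) (fun _ _ n => absurd rfl n) (ee 0)
      obtain ⟨b, h1, rfl⟩ := H.lift 1 q p1
      obtain ⟨g, h2, e⟩ := H.lift b (w := x.1.1 (ee 0)) (by rw [O_map, Q7_ee]) ((dot_comm _ _).trans (p2 ()))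
      have hg : g ∈ H.Γ := ⟨b, h1, h2⟩
      have : g.1⁻¹ * x ∈ XS F {0} := mem_X0.2 ⟨mul_mem (inv_mem (Cov.Hy.mem_Om hg)) x.2, by
        rw [O_mul_apply, ← e, Cov.pt, O_inv_apply]⟩
      exact ⟨⟨_, mul_mem hg (Cov.Hy.A_le (a := (_, φ _)) ⟨this, rfl⟩)⟩, Subtype.ext (mul_inv_cancel_left _ _)⟩
  have k : ∀ (x : Om F) (y : G) (h : (x.1, y) ∈ H.Γ), (MulEquiv.ofBijective ψ hψ).symm x = ⟨_, h⟩ :=
    fun x y h => (MulEquiv.symm_apply_eq _).2 rfl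
  refine ⟨(MonoidHom.snd _ _).comp (H.Γ.subtype.comp (MulEquiv.ofBijective ψ hψ).symm.toMonoidHom),
    fun x hx => ?_, fun x hx => ?_⟩
  · exact congrArg (·.1.2) (k x (φ x) (Cov.Hy.A_le ⟨hx, rfl⟩))
  · refine congrArg (·.1.2) (k x z ?_)
    rw [hx]
    have := Cov.Hy.step' H.Γ.one_mem (one_mem _) (one_mem _)
    rwa [mul_one, mul_one, one_mul] at this

end CL.O7
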