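/- S3101, the case `Ω₇(q)`: automorphisms of `XS S` that permute the sign changes are monomial. -/
import Cfsg.Agent.INV.O7.RGeo
import Cfsg.Agent.INV.O7.RAut

set_option autoImplicit false

namespace CL.O7

open Subgroup CL.Orth CL.OrthE QuadraticMap Equiv

variable {F : Type} [Field F] {S : Finset (Fin 7)} {σ : F ≃+* F} {s s' : V7 F ≃+ V7 F} {m : F} {x y x' y' z : OO F}

instance [Finite F] : Finite (OO F) := Finite.of_injective (fun g : OO F => (g.1 : V7 F → V7 F)) fun _ _ e =>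
  O_ext (congrFun e)

theorem Cj.uniq (h : Cj s x y) (h' : Cj s x y') : y = y' := O_ext fun v => by
  obtain ⟨v, rfl⟩ := s.surjective v
  rw [h, h']

theorem Cj.mul (h : Cj s x y) (h' : Cj s x' y') : Cj s (x * x') (y * y') := fun v => by
  rw [O_mul_apply, O_mul_apply, h', h]

theorem Cj.inv (h : Cj s x y) : Cj s x⁻¹ y⁻¹ := fun v => by
  conv_lhs => rw [← O_apply_inv x v, ← h, O_inv_apply]

theorem Cj.comp (h : Cj s x y) (h' : Cj s' y z) : Cj (s.trans s') x z := fun v => by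
  rw [AddEquiv.trans_apply, AddEquiv.trans_apply, h', h]

/-- powers of `s` -/
def itr (s : V7 F ≃+ V7 F) : ℕ → V7 F ≃+ V7 F
  | 0 => AddEquiv.refl _
  | n + 1 => (itr s n).trans s

theorem dot_add (u v w : V7 F) : dot u (v + w) = dot u v + dot u w := by simp [dot, mul_add, Finset.sum_add_distrib]

theorem dot_smul (c : F) (u v : V7 F) : dot u (c • v) = c * dot u v := by simp [dot, Finset.mul_sum, mul_left_comm]

theorem refl_dot (w v : V7 F) : (Orth.refl (Q7 F) w).1 v = v - ((Q7 F w)⁻¹ * (2 * dot w v)) • w := by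
  rw [Orth.refl_apply, polar_Q7]

theorem exists_split (S : Finset (Fin 7)) (v : V7 F) : ∃ u ∈ VS F S, v = u + ∑ i ∈ S, v i • ee i :=
  ⟨v - ∑ i ∈ S, v i • ee i, fun j hj => by simp [ee_apply, hj], by simp⟩

theorem dot_sum {w : V7 F} (hw : w ∈ VS F S) (c : Fin 7 → F) : dot w (∑ i ∈ S, c i • ee i) = 0 := by
  simp only [dot, Finset.sum_apply, Pi.smul_apply, ee_apply, smul_eq_mul, mul_ite, mul_one, mul_zero, Finset.sum_ite_eq]
  refine Finset.sum_eq_zero fun i _ => ?_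
  split_ifs with h
  exacts [by rw [hw i h, zero_mul], rfl]

theorem Sm.dot_eq (h2 : (2 : F) ≠ 0) (h : Sm S σ s m) {w : V7 F} (hw : w ∈ VS F S) (v : V7 F) :
    dot (s w) (s v) = m * σ (dot w v) := by
  obtain ⟨u, hu, e⟩ := exists_split S v
  have e1 : s (∑ i ∈ S, v i • ee i) = ∑ i ∈ S, σ (v i) • ee i := by
    rw [map_sum]; exact Finset.sum_congr rfl fun i hi => by rw [h.smul, h.fix i hi]
  rw [e, map_add, dot_add, dot_add, e1, dot_sum hw, dot_sum (h.mem w hw), add_zero, add_zero]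
  have := h.q _ (add_mem hw hu)
  rw [map_add, Q_add, Q_add, h.q _ hw, h.q _ hu, polar_Q7, polar_Q7] at this
  simp only [map_add, map_mul, map_ofNat] at this
  exact mul_left_cancel₀ h2 (by linear_combination this)

theorem Sm.cj_refl (h2 : (2 : F) ≠ 0) (h : Sm S σ s m) {w : V7 F} (hw : w ∈ VS F S) :
    Cj s (Orth.refl _ w) (Orth.refl _ (s w)) := fun v => by
  rw [refl_dot, refl_dot, map_sub, h.smul, h.dot_eq h2 hw, h.q w hw]
  simp only [map_mul, map_inv₀, map_ofNat]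
  congr 2
  have := h.m0
  by_cases h0 : σ (Q7 F w) = 0
  · simp [h0]
  · field_simp

theorem tau_cj (i : Fin 7) (x : OO F) : tau F i * x * (tau F i)⁻¹ = Orth.refl _ (ee i) * x * (Orth.refl _ (ee i))⁻¹ :=
  O_ext fun v => by
    rw [inv_eq_of_mul_eq_one_right (tau_sq i), refl_inv]
    simp [tau_eq_refl]

theorem tau_tau_eq (i j : Fin 7) : tau F i * tau F j = Orth.refl _ (ee i) * Orth.refl _ (ee j) :=
  O_ext fun v => by simp [tau_eq_refl]

theorem line_of_cj (h2 : (2 : F) ≠ 0) {i j j' k l l' : Fin 7} (h1 : i ≠ j) (h1' : i ≠ j') (hl : l ≠ l')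
    (h : Cj s (tau F i * tau F j) (tau F k * tau F l)) (h' : Cj s (tau F i * tau F j') (tau F k * tau F l')) :
    ∃ c : F, s (ee i) = c • ee k := by
  have key : ∀ {j l}, i ≠ j → Cj s (tau F i * tau F j) (tau F k * tau F l) → ∀ a, a ≠ k → a ≠ l → s (ee i) a = 0 :=
    fun {j l} h1 h a ha hl => by
      have := congrFun (h (ee i)) a
      rw [O_mul_apply, O_mul_apply, tau_apply, tau_apply, if_neg ha, if_neg hl, tau_ee, if_neg h1, map_neg, tau_ee,
        if_pos rfl, map_neg, Pi.neg_apply] at this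
      exact mul_left_cancel₀ h2 (by linear_combination this)
  refine ⟨s (ee i) k, funext fun a => ?_⟩
  by_cases ha : a = k
  · simp [ha, ee_apply]
  · rw [Pi.smul_apply, ee_apply, if_neg ha, smul_zero]
    by_cases h3 : a = l
    exacts [key h1' h' a ha (h3 ▸ hl), key h1 h a ha h3]

theorem exists_two (hS : S.card ≤ 4) (i : Fin 7) : ∃ j j', j ∉ S ∧ j' ∉ S ∧ i ≠ j ∧ i ≠ j' ∧ j ≠ j' := by
  obtain ⟨j, hj, j', hj', e⟩ := (Finset.one_lt_card (s := (insert i S)ᶜ)).1 (by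
    have := Finset.card_insert_le i S
    rw [Finset.card_compl, Fintype.card_fin]; omega)
  simp only [Finset.mem_compl, Finset.mem_insert, not_or] at hj hj'
  exact ⟨j, j', hj.2, hj'.2, Ne.symm hj.1, Ne.symm hj'.1, e⟩

theorem exists_notMem (hS : S.card ≤ 6) : ∃ i, i ∉ S := by
  by_contra! h
  rw [Finset.eq_univ_of_forall h] at hS
  simp at hS

theorem dg_comm_XS (h2 : (2 : F) ≠ 0) {ε : Fin 7 → ℤˣ} {a : ℤˣ} (h : ∀ i, i ∉ S → ε i = a) (hx : x ∈ XS F S) :
    Commute (dg F ε) x := by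
  have h1 : ∀ v ∈ VS F S, (dg F ε).1 v = sF F ((∏ j, ε j) * a) • v := fun v hv => funext fun i => by
    rw [dg_apply, Pi.smul_apply, smul_eq_mul]
    by_cases hi : i ∈ S
    · rw [hv i hi, mul_zero, mul_zero]
    · rw [h i hi]
  refine ext_ee fun i => ?_
  rw [O_mul_apply, O_mul_apply]
  by_cases hi : i ∈ S
  · rw [hx.2 i hi, dg_ee, map_smul, hx.2 i hi]
  · rw [h1 _ (XS_map h2 hx (ee_mem_VS hi)), h1 _ (ee_mem_VS hi), map_smul]

theorem sF_inj (h2 : (2 : F) ≠ 0) : Function.Injective (sF F) := (injective_iff_map_eq_one _).2 fun a e => by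
  rcases Int.units_eq_one_or a with rfl | rfl
  · rfl
  · rw [sF_neg_one] at e; exact (h2 (by linear_combination -e)).elim

theorem exists_sF {c : F} (h : c * c = 1) : ∃ a, sF F a = c :=
  (mul_self_eq_one_iff.1 h).elim (fun e => ⟨1, by rw [e, map_one]⟩) fun e => ⟨-1, by rw [e, sF_neg_one]⟩

theorem comm_dg_pm (h2 : (2 : F) ≠ 0) {ε : Fin 7 → ℤˣ} {γ : Perm (Fin 7)} (h : Commute (dg F ε) (pm F γ)) (i : Fin 7) :
    ε (γ i) = ε i := by
  have := congrFun (congrArg (fun g : OO F => g.1 (ee i)) h.eq) (γ i)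
  simp only [O_mul_apply, pm_ee, dg_ee, map_smul, Pi.smul_apply, ee_apply, if_true, smul_eq_mul, mul_one] at this
  exact mul_left_cancel (sF_inj h2 this)

theorem mono_conj {γ : Perm (Fin 7)} (hγ : ∀ i, γ i ∈ S ↔ i ∈ S) (ε : Fin 7 → ℤˣ) (hx : x ∈ XS F S) :
    pm F γ * dg F ε * x * (pm F γ * dg F ε)⁻¹ ∈ XS F S :=
  conj_mem_XS (fun i hi => ⟨γ.symm i, (hγ _).1 (by simpa using hi), sF F ((∏ j, ε j) * ε (γ.symm i)), by
    rw [O_mul_apply, map_smul, dg_ee, smul_smul, sF_mul_self, one_smul, pm_ee, apply_symm_apply]⟩) hx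

/-- a linear monomial similarity acts like a monomial isometry -/
theorem Sm.mono (h2 : (2 : F) ≠ 0) (hS : S.card ≤ 6) (h : Sm S 1 s m) {γ : Perm (Fin 7)} (hγ : ∀ i, γ i ∈ S ↔ i ∈ S)
    (hs : ∀ i, i ∉ S → ∃ c : F, s (ee i) = c • ee (γ i)) :
    ∃ ε, ∀ x ∈ XS F S, ∀ y ∈ XS F S, Cj s x y → y = pm F γ * dg F ε * x * (pm F γ * dg F ε)⁻¹ := by
  choose! c hc using hs
  obtain ⟨k, hk⟩ := exists_notMem hS
  have q : ∀ i, i ∉ S → c i * c i = m := fun i hi => by
    have := h.q _ (ee_mem_VS hi)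
    rwa [hc i hi, Q_smul, Q7_ee, Q7_ee, map_one, mul_one, mul_one] at this
  have c0 : c k ≠ 0 := fun e => h.m0 (by rw [← q k hk, e, zero_mul])
  have : ∀ i, ∃ a, i ∉ S → sF F a = c i / c k := fun i => by
    by_cases hi : i ∈ S
    · exact ⟨1, fun h => (h hi).elim⟩
    · exact (exists_sF (by field_simp; rw [_root_.sq, _root_.sq, q i hi, q k hk])).imp fun _ e _ => e
  choose ε hε using this
  refine ⟨ε, fun x hx y hy e => ?_⟩
  set u := pm F γ * dg F ε
  have h1 : ∀ v ∈ VS F S, s v = (c k * sF F (∏ j, ε j)) • u.1 v := fun v hv => by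
    rw [← sum_ee v, map_sum, map_sum, Finset.smul_sum]
    refine Finset.sum_congr rfl fun i _ => ?_
    by_cases hi : i ∈ S
    · simp [hv i hi]
    · rw [h.smul, hc i hi, map_smul, O_mul_apply, dg_ee, map_smul, pm_ee, map_mul, hε i hi, smul_smul, smul_smul, smul_smul]
      congr 1
      have := sF_mul_self (F := F) (∏ j, ε j)
      change v i * _ = _
      field_simp
      linear_combination -(v i * c i) * this
  rw [eq_mul_inv_iff_mul_eq]
  refine ext_ee fun i => ?_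
  rw [O_mul_apply y, O_mul_apply u]
  by_cases hi : i ∈ S
  · rw [hx.2 i hi, O_mul_apply, dg_ee, map_smul, pm_ee, map_smul, hy.2 _ ((hγ i).2 hi)]
  · have := e (ee i)
    rw [h1 _ (ee_mem_VS hi), h1 _ (XS_map h2 hx (ee_mem_VS hi)), map_smul] at this
    exact smul_right_injective _ (mul_ne_zero c0 (sF_ne _)) this

variable [Fintype F]

theorem eq_one_of_sq (h8 : Fintype.card F % 8 = 3 ∨ Fintype.card F % 8 = 5) (h : σ ^ 2 = 1) : σ = 1 := by
  by_contra h1
  have : Finite (zpowers σ) := (finite_zpowers.2 (isOfFinOrder_iff_pow_eq_one.2 ⟨2, two_pos, h⟩)).to_subtype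
  let _ := Fintype.ofFinite (zpowers σ)
  have e := FixedPoints.finrank_eq_card (zpowers σ) F
  rw [← Nat.card_eq_fintype_card, Nat.card_zpowers, orderOf_eq_prime h h1] at e
  have e' := Module.natCard_eq_pow_finrank (K := FixedPoints.subfield (zpowers σ) F) (V := F)
  rw [e, Nat.card_eq_fintype_card] at e'
  generalize Nat.card (FixedPoints.subfield (zpowers σ) F) = n at e'
  have : n % 8 < 8 := Nat.mod_lt _ (by norm_num)
  rw [e', Nat.pow_mod] at h8
  interval_cases n % 8 <;> simp at h8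

theorem eq_one_of_two_pow (h8 : Fintype.card F % 8 = 3 ∨ Fintype.card F % 8 = 5) {k : ℕ} (h : σ ^ 2 ^ k = 1) : σ = 1 := by
  induction k with
  | zero => simpa using h
  | succ k ih => exact ih (eq_one_of_sq h8 (by rwa [← pow_mul, ← pow_succ]))

/-- the centralizer of `XS S` -/
theorem scalar_of_cj (h2 : (2 : F) ≠ 0) (hS : S.card ≤ 4) (hs : ∀ c v, s (c • v) = σ c • s v)
    (h : ∀ x ∈ XS F S, Cj s x x) : σ = 1 ∧ ∃ c : F, ∀ v ∈ VS F S, s v = c • v := by
  obtain ⟨i, hi⟩ := exists_notMem (S := S) (by omega)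
  obtain ⟨j, j', a, b, c, d, e⟩ := exists_two hS i
  obtain ⟨c, hc⟩ := line_of_cj h2 c d e (h _ (tau_tau_mem hi a)) (h _ (tau_tau_mem hi b))
  exact (eq_smul_of_cj h2 hS hs hi hc h).imp_right fun h => ⟨c, h⟩

theorem cen_X0 (h2 : (2 : F) ≠ 0) {u : OO F} (h0 : u.1 (ee 0) = ee 0) (h : ∀ x ∈ XS F {0}, Commute u x) :
    u = 1 ∨ u = tau F 0 := by
  obtain ⟨-, c, hc⟩ := scalar_of_cj h2 (S := {0}) (σ := 1) (s := u.1.toAddEquiv) (by simp) (fun c v => map_smul u.1 c v)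
    fun x hx v => congrArg (fun g : OO F => g.1 v) (h x hx).eq.symm
  replace hc : ∀ i, i ≠ 0 → u.1 (ee i) = c • ee i := fun i hi => hc _ (ee_mem_VS (by simpa using hi))
  have := O_map u (ee 1)
  rw [hc 1 (by decide), Q_smul, Q7_ee, mul_one] at this
  refine (mul_self_eq_one_iff.1 this).imp (fun e => ext_ee fun i => ?_) fun e => ext_ee fun i => ?_ <;>
    by_cases hi : i = 0
  · rw [hi, h0]; rfl
  · rw [hc i hi, e, one_smul]; rfl
  · rw [hi, h0, tau_ee, if_pos rfl]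
  · rw [hc i hi, e, tau_ee, if_neg hi, neg_one_smul]

variable {G : Type*} [Group G] {φ : OO F → G} {g : G}

/-- `φ` is an embedding of `XS S` -/
structure Emb (S : Finset (Fin 7)) (φ : OO F → G) : Prop where
  mul : ∀ x ∈ XS F S, ∀ y ∈ XS F S, φ (x * y) = φ x * φ y
  inj : ∀ x ∈ XS F S, ∀ y ∈ XS F S, φ x = φ y → x = y

/-- `g` normalizes the image of `XS S` -/
def Nz (S : Finset (Fin 7)) (φ : OO F → G) (g : G) : Prop := ∀ x ∈ XS F S, ∃ y ∈ XS F S, g * φ x * g⁻¹ = φ y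

/-- `g` acts on the image of `XS S` like `s` -/
def Act (S : Finset (Fin 7)) (φ : OO F → G) (g : G) (s : V7 F ≃+ V7 F) : Prop :=
  ∀ x ∈ XS F S, ∃ y ∈ XS F S, Cj s x y ∧ g * φ x * g⁻¹ = φ y

theorem Emb.act (h : Emb S φ) (h2 : (2 : F) ≠ 0) (hS : S.card ≤ 2) (hg : Nz S φ g) : ∃ σ s m, Sm S σ s m ∧ Act S φ g s := by
  choose! f hf e using hg
  let β : XS F S →* XS F S := MonoidHom.mk' (fun x => ⟨f x, hf x x.2⟩) fun a b => Subtype.ext
    (h.inj _ (hf _ (a * b).2) _ (mul_mem (hf a a.2) (hf b b.2)) (by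
      rw [← e _ (a * b).2]
      change _ = φ (f a * f b)
      rw [h.mul _ (hf a a.2) _ (hf b b.2), ← e a a.2, ← e b b.2, conj_mul, coe_mul, h.mul _ a.2 _ b.2]))
  have hi : Function.Injective β := fun a b ee => Subtype.ext (h.inj _ a.2 _ b.2 ((MulAut.conj g).injective (by
    simp only [MulAut.conj_apply]
    rw [e a a.2, e b b.2]; exact congrArg (fun y : XS F S => φ y) ee)))
  obtain ⟨σ, s, m, h3, h4⟩ := exists_sm h2 hS (MulEquiv.ofBijective β ⟨hi, Finite.surjective_of_injective hi⟩)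
  exact ⟨σ, s, m, h3, fun x hx => ⟨f x, hf x hx, h4 ⟨x, hx⟩, e x hx⟩⟩

omit [Fintype F] in
theorem Act.cj (h : Emb S φ) (a : Act S φ g s) (hx : x ∈ XS F S) (hy : y ∈ XS F S) (e : g * φ x * g⁻¹ = φ y) : Cj s x y := by
  obtain ⟨y', h1, h2, h3⟩ := a x hx
  rwa [h.inj y hy y' h1 (e.symm.trans h3)]

omit [Fintype F] in
theorem Act.pow (a : Act S φ g s) (n : ℕ) : Act S φ (g ^ n) (itr s n) := by
  induction n with
  | zero => exact fun x hx => ⟨x, hx, fun _ => rfl, by simp⟩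
  | succ n ih =>
    intro x hx
    obtain ⟨y, hy, h1, h2⟩ := ih x hx
    obtain ⟨z, hz, h3, h4⟩ := a y hy
    exact ⟨z, hz, h1.comp h3, by rw [← h4, ← h2, pow_succ']; group⟩

omit [Fintype F] in
theorem smul_pow_of (hs : ∀ c v, s (c • v) = σ c • s v) (n : ℕ) (c : F) (v : V7 F) : itr s n (c • v) = (σ ^ n) c • itr s n v := by
  induction n with
  | zero => rfl
  | succ n ih => rw [pow_succ', itr, AddEquiv.trans_apply, ih, hs]; rfl

/-- a 2-element that permutes the sign changes acts like a monomial isometry -/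
theorem Emb.mon (h : Emb S φ) (h8 : Fintype.card F % 8 = 3 ∨ Fintype.card F % 8 = 5) (hS : S.card ≤ 2) (hg : Nz S φ g)
    {γ : Perm (Fin 7)} (hγ : ∀ i, γ i ∈ S ↔ i ∈ S)
    (ht : ∀ i j, i ∉ S → j ∉ S → g * φ (tau F i * tau F j) * g⁻¹ = φ (tau F (γ i) * tau F (γ j))) {k : ℕ}
    (hk : g ^ 2 ^ k = 1) : ∃ ε, ∀ x ∈ XS F S, g * φ x * g⁻¹ = φ (pm F γ * dg F ε * x * (pm F γ * dg F ε)⁻¹) := by
  have h2 := two_ne h8
  obtain ⟨σ, s, m, h3, a⟩ := h.act h2 hS hg
  obtain rfl : σ = 1 := eq_one_of_two_pow h8 (scalar_of_cj h2 (S := S) (by omega) (smul_pow_of h3.smul (2 ^ k))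
    fun x hx => (a.pow _).cj h hx hx (by simp [hk])).1
  obtain ⟨ε, hε⟩ := h3.mono h2 (by omega) hγ fun i hi => by
    obtain ⟨j, j', a1, a2, a3, a4, a5⟩ := exists_two (S := S) (by omega) i
    have n : ∀ {i}, i ∉ S → γ i ∉ S := fun h => mt (hγ _).1 h
    exact line_of_cj h2 a3 a4 (γ.injective.ne a5) (a.cj h (tau_tau_mem hi a1) (tau_tau_mem (n hi) (n a1)) (ht i j hi a1))
      (a.cj h (tau_tau_mem hi a2) (tau_tau_mem (n hi) (n a2)) (ht i j' hi a2))
  refine ⟨ε, fun x hx => ?_⟩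
  obtain ⟨y, hy, h4, h5⟩ := a x hx
  rw [h5, hε x hx y hy h4]

end CL.O7
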