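import Cfsg.Agent.INV.O7.Hh

/-! The orbits of the automizer of `V`. -/

set_option autoImplicit false

namespace CL.O7
open Subgroup CL.Fus

namespace Rho

/-- the orbits of `⟨ac.range, pv s3⟩` -/
def lb (v : V) : ℕ :=
  Nat.mod (Nat.shiftRight 0x1aa2a447a4472773a447498648967665a4474896498676652773766576653550 (Nat.mul 4 v.n)) 16

def rp (i : ℕ) : V := vv (Nat.shiftRight 0x1f5951c5057c0ffc0 (Nat.mul 6 i))

def go : List (V × V) → V → V → ℕ
  | [], v, w => Nat.shiftLeft 1 (Nat.add (Nat.mul 16 (lb v)) (lb w))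
  | p :: l, v, w => Nat.lor (go l v w) (go l (v * p.1) (w * p.2))

def cl (E S : ℕ) (n : ℕ) : ℕ :=
  Nat.rec S (fun i T => cond (Nat.testBit T i) (Nat.lor T (Nat.mod (Nat.shiftRight E (Nat.mul 16 i)) 65536)) T) n

def fc (n : ℕ) (f : ℕ → Bool) : Bool := Nat.casesOn n (f 0) fun k => f (Nat.succ k)

theorem fc_eq (n : ℕ) (f : ℕ → Bool) : fc n f = f n := by cases n <;> rfl

def cl4 (E S : ℕ) : ℕ := cl E (cl E (cl E (cl E S 11) 11) 11) 11

def fin (S1 S2 S3 S4 : ℕ) : Bool :=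
  Nat.testBit S1 2 || Nat.testBit S1 3 || Nat.testBit S2 3 ||
    (Nat.beq S1 1810 && Nat.beq S2 196 && Nat.beq S3 40) ||
    (Nat.beq S1 1026 && Nat.beq S3 104 && Nat.beq (Nat.lor S2 S4) 916)

def ck (E : ℕ) : Bool := anyN 10 (fun i => Nat.testBit E (Nat.mul 16 (Nat.succ i))) ||
  fin (cl4 E 2) (cl4 E 4) (cl4 E 8) (cl4 E 16)

def gr (c0 c1 c2 c3 c4 c5 : V) : ℕ :=
  go [(e 0, c0), (e 1, c1), (e 2, c2), (e 3, c3), (e 4, c4), (e 5, c5)] 1 1

theorem main : ∀ a b : TT, a.n &&& 2 = 0 → b.n &&& 2 = 0 → ∀ u : V, av a u ≠ u → av b u ≠ u →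
    av a u ≠ av b u → ∀ x : V, av a x = x → av b x = x → fc (gr u (av a u) (av b u) (av a (av b u)) x
      (vv 63 * (u * av a u * av b u * av a (av b u)))) ck = true := by decide +kernel

theorem lb_lt (v : V) : lb v < 16 := Nat.mod_lt _ (by decide)

theorem words : ∀ v : V, ∃ t, av t (rp (lb v)) = v ∨ pl s3 (av t (rp (lb v))) = v ∨
    pl s3 (pl s3 (av t (rp (lb v)))) = v := by decide +kernel

theorem go_spec {g : MulAut V} {n : ℕ} : ∀ (l : List (V × V)) (v : V), (∀ p ∈ l, g p.1 = p.2) →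
    (go l v (g v)).testBit n = true → ∃ v, n = 16 * lb v + lb (g v)
  | [], v, _, H => ⟨v, by
      have : (1 <<< (16 * lb v + lb (g v))).testBit n = true := H
      rw [Nat.one_shiftLeft, Nat.testBit_two_pow] at this
      exact (of_decide_eq_true this).symm⟩
  | p :: l, v, hl, H => by
      have : (go l v (g v) ||| go l (v * p.1) (g v * p.2)).testBit n = true := H
      rw [Nat.testBit_or, Bool.or_eq_true, ← hl p List.mem_cons_self, ← map_mul] at this
      exact this.elim (go_spec l _ fun q hq => hl q (List.mem_cons_of_mem _ hq))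
        (go_spec l _ fun q hq => hl q (List.mem_cons_of_mem _ hq))

variable {Φ : Subgroup (MulAut V)}

/-- the orbit relation -/
def R (Φ : Subgroup (MulAut V)) (u v : V) : Prop := ∃ ψ ∈ Φ, ψ u = v

theorem R.refl (u : V) : R Φ u u := ⟨1, one_mem _, rfl⟩
theorem R.symm {u v : V} : R Φ u v → R Φ v u := by
  rintro ⟨ψ, h, rfl⟩; exact ⟨ψ⁻¹, inv_mem h, MulAut.inv_apply_self _ _ _⟩
theorem R.trans {u v w : V} : R Φ u v → R Φ v w → R Φ u w := by
  rintro ⟨ψ, h, rfl⟩ ⟨χ, h', rfl⟩; exact ⟨χ * ψ, mul_mem h' h, rfl⟩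
theorem R.ne {u : V} (h : R Φ u 1) : u = 1 := by
  obtain ⟨ψ, -, h⟩ := h
  exact (MulEquiv.map_eq_one_iff ψ).1 h

theorem of_lb (hD : ac.range ≤ Φ) (hs : pv s3 ∈ Φ) {u v : V} (h : lb u = lb v) : R Φ u v := by
  have k : ∀ v, R Φ (rp (lb v)) v := fun v => by
    obtain ⟨t, H | H | H⟩ := words v
    exacts [⟨ac t, hD ⟨t, rfl⟩, H⟩, ⟨pv s3 * ac t, mul_mem hs (hD ⟨t, rfl⟩), H⟩,
      ⟨pv s3 * (pv s3 * ac t), mul_mem hs (mul_mem hs (hD ⟨t, rfl⟩)), H⟩]
  exact (k u).symm.trans (h ▸ k v)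

theorem cl_spec (hD : ac.range ≤ Φ) (hs : pv s3 ∈ Φ) {g : MulAut V} (hg : g ∈ Φ) {E S : ℕ} {u : V}
    (hE : ∀ n, E.testBit n = true → ∃ v, n = 16 * lb v + lb (g v))
    (hS : ∀ w, S.testBit (lb w) = true → R Φ u w) (n : ℕ) :
    ∀ w, (cl E S n).testBit (lb w) = true → R Φ u w := by
  induction n with
  | zero => exact hS
  | succ n ih =>
    intro w H
    change (cond (Nat.testBit (cl E S n) n) (cl E S n ||| (E >>> (16 * n)) % 2 ^ 16) (cl E S n)).testBit _ = true at H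
    cases c : Nat.testBit (cl E S n) n
    · rw [c] at H; exact ih w H
    · rw [c, cond_true, Nat.testBit_or, Bool.or_eq_true, Nat.testBit_mod_two_pow, Nat.testBit_shiftRight,
        Bool.and_eq_true] at H
      rcases H with H | H
      · exact ih w H
      · obtain ⟨v, hv⟩ := hE _ H.2
        have h1 := lb_lt w
        have h2 := lb_lt (g v)
        obtain rfl : n = lb v := by omega
        exact ((ih v c).trans ⟨g, hg, rfl⟩).trans (of_lb hD hs (by omega))

theorem cls : ∀ v : V, (cA (twM (inl v)) = 0 ∧ v = 1) ∨ (cA (twM (inl v)) = 3 ∧ Nat.testBit 1810 (lb v) = true) ∨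
    (cA (twM (inl v)) = 2 ∧ Nat.testBit 196 (lb v) = true) ∨
    (cA (twM (inl v)) = 1 ∧ Nat.testBit 40 (lb v) = true) := by
  simp only [twM_apply]; decide +kernel

theorem wts : ∀ v : V, (wt v = 6 → Nat.testBit 1026 (lb v) = true) ∧ (wt v = 2 → Nat.testBit 104 (lb v) = true) ∧
    (wt v = 4 → Nat.testBit 916 (lb v) = true) ∧ (lb v = 0 → v = 1) := by decide +kernel

theorem two_two : ∀ y y' : V, wt y = 2 → wt y' = 2 → y * y' ≠ vv 63 := by decide +kernel

end Rho

open Rho in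

/-- PROOF (checked by computer). `R u v := ∃ ψ ∈ Φ, ψ u = v` is an equivalence relation. The orbits of `⟨ac.range, pv s3⟩` on `V \ {1}` are given by `cw (inl v)` together with
`v ∈ Z0`, `pc v` (representatives `63, 15, 48, 47, 16, 17, 23, 7, 21, 37` and `5 ~ 17`: sizes 1, 3, 3, 6, 6, 12, 12, 12, 4, 4); make a table `lab : V → ℕ` and words.
`g = lin ![u, av a' u, av b' u, av (a' * b') u, x, y]` where `u = g (e 0)`, `a'`, `b'` come from `hn` for `tt 1`, `tt 4` (`e 1 = av (tt 1) (e 0)`, `e 2 = av (tt 4) (e 0)`,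
`e 3 = av (tt 5) (e 0)`), `x`, `y` are fixed by `a'`, `b'`, and `y` is determined by `h5`; `g` is injective (`g v = 1 → v = 1`): 768 cases. In each case merge the labels of `v` and `g v`
(union-find on ten labels packed in a number, invariant: equal entries are `R`-related). Outcome: two of `63, 15, 48` are merged (against `n1`-`n3`); or the classes are those of
`cA (twM (inl v))` (sizes 27, 27, 9); or all `wt v = 6` are merged with `63`, all `wt v = 2` with `48`, and every `wt v = 4` with `15` or `23`. In the last case let `R 63 v`; `wt v ≠ 2`; if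
`wt v = 4` then `R 63 23`; `23 = 3 * 20`, so `63 = y * y'` with `R 48 y`, `R 48 y'`; `wt y, wt y' ∈ {2, 4}` and not both 2, so `R 48 15` or `R 48 23`: absurd. -/
theorem rho {Φ : Subgroup (MulAut V)} (hD : ac.range ≤ Φ) (hs : pv s3 ∈ Φ) {g : MulAut V} (hg : g ∈ Φ)
    (hn : ∀ t : TT, t.n &&& 2 = 0 → ∃ t' : TT, t'.n &&& 2 = 0 ∧ g * ac t = ac t' * g) (h5 : g (vi 4) = vv 63)
    (n1 : ∀ ψ ∈ Φ, ψ (vv 63) ≠ vv 15) (n2 : ∀ ψ ∈ Φ, ψ (vv 63) ≠ vv 48) (n3 : ∀ ψ ∈ Φ, ψ (vv 15) ≠ vv 48) :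
    (∀ u v, cA (twM (inl u)) = cA (twM (inl v)) → ∃ ψ ∈ Φ, ψ u = v) ∨
      ∀ v, (∃ ψ ∈ Φ, ψ (vv 63) = v) ↔ wt v = 6 := by
  obtain ⟨a, ha, ea⟩ := hn (tt 1) (by decide)
  obtain ⟨b, hb, eb⟩ := hn (tt 4) (by decide)
  have ka : ∀ v, g (av (tt 1) v) = av a (g v) := fun v => DFunLike.congr_fun ea v
  have kb : ∀ v, g (av (tt 4) v) = av b (g v) := fun v => DFunLike.congr_fun eb v
  have e1 : g (e 1) = av a (g (e 0)) := by rw [← ka]; exact congrArg g (by decide +kernel)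
  have e2 : g (e 2) = av b (g (e 0)) := by rw [← kb]; exact congrArg g (by decide +kernel)
  have e3 : g (e 3) = av a (av b (g (e 0))) := by rw [← kb, ← ka]; exact congrArg g (by decide +kernel)
  have e5 : g (e 5) = vv 63 * (g (e 0) * av a (g (e 0)) * av b (g (e 0)) * av a (av b (g (e 0)))) := by
    rw [← e3, ← e1, ← e2, ← h5, ← map_mul, ← map_mul, ← map_mul, ← map_mul]
    exact congrArg g (by decide +kernel)
  have H := main a b ha hb (g (e 0)) (by rw [← e1]; exact g.injective.ne (by decide +kernel))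
    (by rw [← e2]; exact g.injective.ne (by decide +kernel))
    (by rw [← e1, ← e2]; exact g.injective.ne (by decide +kernel)) (g (e 4))
    (by rw [← ka]; exact congrArg g (by decide +kernel)) (by rw [← kb]; exact congrArg g (by decide +kernel))
  rw [fc_eq, ← e5, ← e3, ← e1, ← e2] at H
  have hE : ∀ n, (gr (g (e 0)) (g (e 1)) (g (e 2)) (g (e 3)) (g (e 4)) (g (e 5))).testBit n = true →
      ∃ v, n = 16 * lb v + lb (g v) := fun n H => go_spec
    [(e 0, g (e 0)), (e 1, g (e 1)), (e 2, g (e 2)), (e 3, g (e 3)), (e 4, g (e 4)), (e 5, g (e 5))] 1 (by simp)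
      (by rw [map_one]; exact H)
  generalize gr (g (e 0)) (g (e 1)) (g (e 2)) (g (e 3)) (g (e 4)) (g (e 5)) = E at H hE
  have k : ∀ u w, (cl4 E (2 ^ lb u)).testBit (lb w) = true → R Φ u w := fun u =>
    cl_spec hD hs hg hE (cl_spec hD hs hg hE (cl_spec hD hs hg hE (cl_spec hD hs hg hE (fun w H => by
      rw [Nat.testBit_two_pow] at H
      exact of_lb hD hs (of_decide_eq_true H)) 11) 11) 11) 11
  have k1 : ∀ w, (cl4 E 2).testBit (lb w) = true → R Φ (vv 63) w := k (vv 63)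
  have k2 : ∀ w, (cl4 E 4).testBit (lb w) = true → R Φ (vv 15) w := k (vv 15)
  have k3 : ∀ w, (cl4 E 8).testBit (lb w) = true → R Φ (vv 48) w := k (vv 48)
  have k4 : ∀ w, (cl4 E 16).testBit (lb w) = true → R Φ (vv 23) w := k (vv 23)
  have m1 : ¬ R Φ (vv 63) (vv 15) := fun ⟨ψ, h, e⟩ => n1 ψ h e
  have m2 : ¬ R Φ (vv 63) (vv 48) := fun ⟨ψ, h, e⟩ => n2 ψ h e
  have m3 : ¬ R Φ (vv 15) (vv 48) := fun ⟨ψ, h, e⟩ => n3 ψ h e
  rw [ck, Bool.or_eq_true, anyN_iff] at H
  rcases H with ⟨i, -, H⟩ | H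
  · obtain ⟨v, hv⟩ := hE _ H
    have h2 := lb_lt (g v)
    change 16 * (i + 1) = _ at hv
    have h3 := (MulEquiv.map_eq_one_iff g).1 ((wts (g v)).2.2.2 (by omega))
    rw [h3, map_one, show lb 1 = 0 from rfl] at hv
    omega
  generalize cl4 E 2 = S1, cl4 E 4 = S2, cl4 E 8 = S3, cl4 E 16 = S4 at k1 k2 k3 k4 H
  simp only [fin, Bool.or_eq_true, Bool.and_eq_true, Nat.beq_eq] at H
  rcases H with (((H | H) | H) | ⟨⟨rfl, rfl⟩, rfl⟩) | ⟨⟨rfl, rfl⟩, H⟩
  · exact (m1 (k1 _ H)).elim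
  · exact (m2 (k1 _ H)).elim
  · exact (m3 (k2 _ H)).elim
  · refine Or.inl fun u v H => ?_
    rcases cls u with ⟨p, rfl⟩ | p | p | p <;> rcases cls v with ⟨q, rfl⟩ | q | q | q <;> try omega
    exacts [R.refl 1, (k1 u p.2).symm.trans (k1 v q.2), (k2 u p.2).symm.trans (k2 v q.2),
      (k3 u p.2).symm.trans (k3 v q.2)]
  · have w6 : ∀ v, wt v = 6 → R Φ (vv 63) v := fun v h => k1 v ((wts v).1 h)
    have w2 : ∀ v, wt v = 2 → R Φ (vv 48) v := fun v h => k3 v ((wts v).2.1 h)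
    have w4 : ∀ v, wt v = 4 → R Φ (vv 15) v ∨ R Φ (vv 23) v := fun v h => by
      have := (wts v).2.2.1 h
      rw [← H, show Nat.lor S2 S4 = S2 ||| S4 from rfl, Nat.testBit_or, Bool.or_eq_true] at this
      exact this.imp (k2 v) (k4 v)
    refine Or.inr fun v => ⟨fun (h : R Φ _ _) => ?_, w6 v⟩
    rcases wt_cases v with rfl | c | c | c
    · exact absurd h.ne (by decide)
    · exact (m2 (h.trans (w2 v c).symm)).elim
    · exfalso
      rcases w4 v c with h' | h'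
      · exact m1 (h.trans h'.symm)
      have h23 := h.trans h'.symm
      obtain ⟨ψ, hψ, eψ⟩ := h23.symm
      have z : ∀ y, wt y = 2 → wt (ψ y) = 2 := fun y hy => by
        have r : R Φ (vv 48) (ψ y) := (w2 y hy).trans ⟨ψ, hψ, rfl⟩
        rcases wt_cases (ψ y) with c | c | c | c
        · exact absurd (c ▸ r).ne (by decide)
        · exact c
        · exact ((w4 _ c).elim (fun h => m3 (h.trans r.symm)) fun h => m2 ((h23.trans h).trans r.symm)).elim
        · exact (m2 ((w6 _ c).trans r.symm)).elim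
      exact two_two _ _ (z (vv 3) (by decide)) (z (vv 20) (by decide)) (by
        rw [← map_mul, ← eψ]; exact congrArg ψ (by decide))
    · exact c

end CL.O7
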